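import Cfsg.Agent.OmegaSeven.Base
set_option autoImplicit false

/-!
Counts of fixed vectors, the sign on the vectors of norm one, and centraliser certificates.
-/

namespace CfsgLib.OmegaSeven

open Matrix QuadraticMap CfsgLib.Forms

/-- The underlying matrix. -/
def mat (g : Iso) : Matrix Ix Ix F := ((g : GL Ix F) : Matrix Ix Ix F)

theorem mat_mul (g k : Iso) : mat (g * k) = mat g * mat k := rfl

@[simp] theorem mat_one : mat 1 = 1 := rfl

theorem mat_def (g : Iso) : ((g : GL Ix F) : Matrix Ix Ix F) = mat g := rfl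

theorem mat_inj {g k : Iso} (h : mat g = mat k) : g = k := iso_ext h

theorem Q_mat (g : Iso) (v : Ix → F) : Q (mat g *ᵥ v) = Q v := mem_Iso.1 g.2 v

theorem mat_inv_mulVec (g : Iso) (v : Ix → F) : mat g⁻¹ *ᵥ (mat g *ᵥ v) = v := by
  rw [Matrix.mulVec_mulVec, ← mat_mul, inv_mul_cancel, mat_one, Matrix.one_mulVec]

theorem mat_mulVec_inv (g : Iso) (v : Ix → F) : mat g *ᵥ (mat g⁻¹ *ᵥ v) = v := by
  rw [Matrix.mulVec_mulVec, ← mat_mul, mul_inv_cancel, mat_one, Matrix.one_mulVec]

/-- Number of vectors fixed by an element with given value of the form. -/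
noncomputable def fixCount (g : Iso) (c : F) : ℕ :=
  Nat.card {v : Ix → F // mat g *ᵥ v = v ∧ Q v = c}

theorem mem_allV_ok : ∀ v ∈ allV 7, okV v = true :=
  fun v hv => List.all_eq_true.1 (by decide +kernel : (allV 7).all okV = true) v hv

/-- Number of fixed codes with given value of the form. -/
def cnt (A : M7) (c : ℕ) : ℕ :=
  ((allV 7).filter fun v => Nat.beq (qf v) c && Nat.beq (app A v) v).length

theorem allV_nodup : (allV 7).Nodup := by
  have : ∀ k, (allV k).Nodup := by
    intro k
    induction k with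
    | zero => simp [allV]
    | succ k ih =>
      rw [allV, List.nodup_flatMap]
      refine ⟨fun t _ => by simp, ?_⟩
      refine ih.imp fun {a b} hab => ?_
      simp only [Function.onFun, List.disjoint_left, List.mem_cons, List.not_mem_nil, or_false]
      rintro x (rfl | rfl | rfl) <;> omega
  exact this 7

theorem okV_app (A : M7) (v : ℕ) : okV (app A v) = true := okV_red _

theorem card_filter_eq (p : ℕ → Bool) (P : (Ix → F) → Prop) (h : ∀ v ∈ allV 7, (p v = true ↔ P (vec v))) :
    Nat.card {v : Ix → F // P v} = ((allV 7).filter p).length := by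
  classical
  rw [← List.toFinset_card_of_nodup (allV_nodup.filter p), ← Nat.card_eq_finsetCard]
  refine Nat.card_congr
    { toFun := fun v => ⟨code v.1, ?_⟩
      invFun := fun v => ⟨vec v.1, ?_⟩
      left_inv := fun v => Subtype.ext (vec_code v.1)
      right_inv := fun v => ?_ }
  · rw [List.mem_toFinset, List.mem_filter]
    refine ⟨code_mem _, (h _ (code_mem _)).2 ?_⟩
    rw [vec_code]
    exact v.2
  · have := v.2
    rw [List.mem_toFinset, List.mem_filter] at this
    exact (h _ this.1).1 this.2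
  · have := v.2
    rw [List.mem_toFinset, List.mem_filter] at this
    exact Subtype.ext (vec_inj (okV_code _) (mem_allV_ok _ this.1) (vec_code _))

theorem fixCount_eq {g : Iso} {A : M7} (hA : A.ok = true) (hg : mat g = toMat A) {c : ℕ} (hc : c < 3) :
    fixCount g (c : F) = cnt A c := by
  refine card_filter_eq _ _ fun v hv => ?_
  have hv' := mem_allV_ok v hv
  simp only [Bool.and_eq_true, Nat.beq_eq, hg, ← vec_app hA hv', ← qf_cast]
  constructor
  · rintro ⟨h1, h2⟩
    rw [h1, h2]
    exact ⟨rfl, rfl⟩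
  · rintro ⟨h1, h2⟩
    exact ⟨cast_inj3 (qf_lt v) hc h2, vec_inj (okV_app _ _) hv' h1⟩

theorem fix_conj_iff (h g : Iso) (u : Ix → F) :
    mat (h * g * h⁻¹) *ᵥ u = u ↔ mat g *ᵥ (mat h⁻¹ *ᵥ u) = mat h⁻¹ *ᵥ u := by
  rw [mat_mul, mat_mul, ← Matrix.mulVec_mulVec, ← Matrix.mulVec_mulVec]
  constructor
  · intro e
    have := congrArg (fun w => mat h⁻¹ *ᵥ w) e
    simpa only [mat_inv_mulVec] using this
  · intro e
    rw [e, mat_mulVec_inv]

theorem fixCount_conj (h g : Iso) (c : F) : fixCount (h * g * h⁻¹) c = fixCount g c := by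
  rw [fixCount, fixCount]
  let f : (Ix → F) ≃ (Ix → F) := ⟨fun v => mat h⁻¹ *ᵥ v, fun v => mat h *ᵥ v,
    fun v => mat_mulVec_inv h v, fun v => mat_inv_mulVec h v⟩
  refine Nat.card_congr (f.subtypeEquiv fun v => ?_)
  rw [fix_conj_iff]
  exact and_congr_right fun _ => by rw [show f v = mat h⁻¹ *ᵥ v from rfl, Q_mat]

theorem fixCount_sq {g : Iso} (hg : g ^ 3 = 1) (c : F) : fixCount (g * g) c = fixCount g c := by
  have h4 : g * g * (g * g) = g := by
    have : g * g * (g * g) = g ^ 3 * g := by simp [pow_succ, mul_assoc]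
    rw [this, hg, one_mul]
  refine Nat.card_congr (Equiv.subtypeEquivRight fun v => ?_)
  refine and_congr_left fun _ => ⟨fun h => ?_, fun h => ?_⟩
  · conv_lhs => rw [← h4, mat_mul, ← Matrix.mulVec_mulVec, h, h]
  · rw [mat_mul, ← Matrix.mulVec_mulVec, h, h]

/-! ### The sign on the vectors of norm one -/

/-- The vectors of norm one. -/
abbrev One1 : Type := {v : Ix → F // Q v = 1}

/-- The action on the vectors of norm one. -/
noncomputable def oneHom : Iso →* Equiv.Perm One1 where
  toFun g :=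
    { toFun := fun v => ⟨mat g *ᵥ v.1, (Q_mat g v.1).trans v.2⟩
      invFun := fun v => ⟨mat g⁻¹ *ᵥ v.1, (Q_mat g⁻¹ v.1).trans v.2⟩
      left_inv := fun v => Subtype.ext (mat_inv_mulVec g v.1)
      right_inv := fun v => Subtype.ext (mat_mulVec_inv g v.1) }
  map_one' := Equiv.ext fun v => Subtype.ext (by simp)
  map_mul' g k := Equiv.ext fun v => Subtype.ext (by
    show mat (g * k) *ᵥ v.1 = mat g *ᵥ (mat k *ᵥ v.1)
    rw [Matrix.mulVec_mulVec, mat_mul])

/-- The sign character. -/
noncomputable def psi : Iso →* ℤˣ := by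
  classical exact Equiv.Perm.sign.comp oneHom

theorem psi_eq_one_of_mem {g : Iso} (hg : g ∈ Cfsg.Omega F Q) : psi g = 1 :=
  MonoidHom.mem_ker.1 (Abelianization.commutator_subset_ker psi hg)

theorem psi_eq_one_of_cube {g : Iso} (hg : g ^ 3 = 1) : psi g = 1 := by
  have h : psi g ^ 3 = 1 := by rw [← map_pow, hg, map_one]
  rcases Int.units_eq_one_or (psi g) with e | e
  · exact e
  · rw [e] at h; simp [pow_succ] at h

/-- Number of moved codes of norm one. -/
def moved (A : M7) : ℕ :=
  ((allV 7).filter fun v => Nat.beq (qf v) 1 && !(Nat.beq (app A v) v)).length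

theorem psi_involution {g : Iso} (hg : g * g = 1) {A : M7} (hA : A.ok = true) (e : mat g = toMat A) :
    psi g = (-1) ^ (moved A / 2) := by
  classical
  have hσ : oneHom g ^ 2 = 1 := by rw [← map_pow, pow_two, hg, map_one]
  have hsupp : (oneHom g).support.card = moved A := by
    rw [← Nat.card_eq_finsetCard]
    rw [show moved A = Nat.card {v : Ix → F // Q v = 1 ∧ mat g *ᵥ v ≠ v} from ?_]
    · exact Nat.card_congr
        { toFun := fun x => ⟨x.1.1, x.1.2, fun h => Equiv.Perm.mem_support.1 x.2 (Subtype.ext h)⟩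
          invFun := fun x => ⟨⟨x.1, x.2.1⟩,
            Equiv.Perm.mem_support.2 fun h => x.2.2 (congrArg Subtype.val h)⟩
          left_inv := fun _ => rfl
          right_inv := fun _ => rfl }
    · refine (card_filter_eq _ _ fun v hv => ?_).symm
      have hv' := mem_allV_ok v hv
      simp only [Bool.and_eq_true, Bool.not_eq_true', e, ← vec_app hA hv', ← qf_cast]
      constructor
      · rintro ⟨h1, h2⟩
        refine ⟨by rw [Nat.eq_of_beq_eq_true h1]; rfl, fun h => ?_⟩
        rw [vec_inj (okV_app _ _) hv' (vec_app hA hv' ▸ h)] at h2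
        simp at h2
      · rintro ⟨h1, h2⟩
        refine ⟨Nat.beq_eq ▸ (cast_inj3 (qf_lt v) (by norm_num) h1), ?_⟩
        cases hb : Nat.beq (app A v) v
        · rfl
        · exact absurd (congrArg vec (Nat.eq_of_beq_eq_true hb)) h2
  have hc : ∀ n ∈ (oneHom g).cycleType, n = 2 := by
    intro n hn
    have h1 := Equiv.Perm.two_le_of_mem_cycleType hn
    have h2 : n ∣ 2 := (Equiv.Perm.dvd_of_mem_cycleType hn).trans (orderOf_dvd_of_pow_eq_one hσ)
    exact le_antisymm (Nat.le_of_dvd (by norm_num) h2) h1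
  show Equiv.Perm.sign (oneHom g) = _
  rw [Equiv.Perm.sign_of_cycleType, ← hsupp, ← Equiv.Perm.sum_cycleType,
    Multiset.eq_replicate_card.2 hc, Multiset.sum_replicate, Multiset.card_replicate, smul_eq_mul,
    Nat.mul_div_cancel _ two_pos, pow_add]
  simp [pow_mul]

/-! ### Centralisers -/

/-- Commuting with a coded matrix. -/
def centOf (x : Iso) : Subgroup Iso := Subgroup.centralizer ({x} : Set Iso)

/-- The elements fixing the given vectors. -/
def fixing (L : List ℕ) : Subgroup Iso where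
  carrier := {g | ∀ v ∈ L, mat g *ᵥ vec v = vec v}
  mul_mem' {a b} ha hb v hv := by rw [mat_mul, ← Matrix.mulVec_mulVec, hb v hv, ha v hv]
  one_mem' v _ := by simp
  inv_mem' {a} ha v hv := by
    have := congrArg (fun w => mat a⁻¹ *ᵥ w) (ha v hv)
    simp only [Matrix.mulVec_mulVec, ← mat_mul, inv_mul_cancel] at this
    simpa [mat_mul] using this.symm

/-- A generator: commutes, fixes, and has trivial sign, either by its order or by a count. -/
def genOk (A : M7) (fixd : List ℕ) (g : M7) : Bool :=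
  isoOk g && eqM (mulM g A) (mulM A g) && fixd.all (fun v => okV v && Nat.beq (app g v) v) &&
    (eqM (mulM g (mulM g g)) idM || (eqM (mulM g g) idM && Nat.beq (moved g / 2 % 2) 0))

/-- An orbit list: each entry is a generator index, an earlier index, and the vector. -/
def orbitOk (gens : List M7) (v : ℕ) : List (ℕ × ℕ × ℕ) → List ℕ → Bool
  | [], _ => true
  | (w, k, j) :: rest, acc =>
    ((Nat.beq w v) || (Nat.blt k gens.length && Nat.blt j acc.length &&
      Nat.beq (app (gens.getD k idM) (acc.getD j 0)) w)) &&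
    orbitOk gens v rest (acc ++ [w])

/-- Invariants of a vector against fixed ones. -/
def sameData (A : M7) (fixd : List ℕ) (v w : ℕ) : Bool :=
  Nat.beq (qf w) (qf v) &&
  fixd.all (fun f => Nat.beq (pol w f) (pol v f) && Nat.beq (pol w (app A f)) (pol v (app A f)) &&
    Nat.beq (pol w (app A (app A f))) (pol v (app A (app A f)))) &&
  Nat.beq (pol w (app A w)) (pol v (app A v))

/-- One level: every candidate image of `v` is in the orbit. -/
def levelOk (A : M7) (fixd : List ℕ) (v : ℕ) (gens : List M7) (orb : List (ℕ × ℕ × ℕ)) : Bool :=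
  okV v && gens.all (genOk A fixd) && orbitOk gens v orb [] &&
  (allV 7).all fun w => !(sameData A fixd v w) || orb.any fun e => Nat.beq e.1 w

theorem orbitOk_spec {gens : List M7} {v : ℕ} {K : Subgroup Iso} (hv : okV v = true)
    (hg : ∀ g ∈ gens, g.ok = true ∧ ∃ k ∈ K, mat k = toMat g) :
    ∀ (orb : List (ℕ × ℕ × ℕ)) (acc : List ℕ), orbitOk gens v orb acc = true →
      (∀ a ∈ acc, okV a = true ∧ ∃ k ∈ K, mat k *ᵥ vec v = vec a) →
      ∀ e ∈ orb, ∃ k ∈ K, mat k *ᵥ vec v = vec e.1
  | [], _, _, _, e, he => by simp at he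
  | (w, k, j) :: rest, acc, h, ha, e, he => by
    rw [orbitOk, Bool.and_eq_true] at h
    have hw : okV w = true ∧ ∃ k ∈ K, mat k *ᵥ vec v = vec w := by
      rcases Bool.or_eq_true _ _ |>.mp h.1 with h1 | h1
      · rw [Nat.eq_of_beq_eq_true h1]
        exact ⟨hv, 1, one_mem K, by simp⟩
      · simp only [Bool.and_eq_true, Nat.blt_eq, Nat.beq_eq] at h1
        obtain ⟨⟨hk, hj⟩, e1⟩ := h1
        obtain ⟨okg, t, ht, et⟩ := hg (gens.getD k idM)
          (by rw [List.getD_eq_getElem _ _ hk]; exact List.getElem_mem _)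
        obtain ⟨oka, s, hs, es⟩ := ha (acc.getD j 0)
          (by rw [List.getD_eq_getElem _ _ hj]; exact List.getElem_mem _)
        refine ⟨e1 ▸ okV_app _ _, t * s, mul_mem ht hs, ?_⟩
        rw [mat_mul, ← Matrix.mulVec_mulVec, es, et, ← vec_app okg oka, e1]
    rcases List.mem_cons.1 he with rfl | he
    · exact hw.2
    · refine orbitOk_spec hv hg rest (acc ++ [w]) h.2 (fun a ha' => ?_) e he
      rcases List.mem_append.1 ha' with ha' | ha'
      · exact ha a ha'
      · rw [List.mem_singleton.1 ha']; exact hw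

theorem level_spec {A : M7} (hA : A.ok = true) {x : Iso} (hx : mat x = toMat A) {fixd : List ℕ}
    (hf : ∀ f ∈ fixd, okV f = true) {v : ℕ} {gens : List M7} {orb : List (ℕ × ℕ × ℕ)}
    (h : levelOk A fixd v gens orb = true)
    (hrec : ∀ g ∈ centOf x ⊓ fixing (fixd ++ [v]), psi g = 1) :
    ∀ g ∈ centOf x ⊓ fixing fixd, psi g = 1 := by
  simp only [levelOk, Bool.and_eq_true, List.all_eq_true] at h
  obtain ⟨⟨⟨hv, hg⟩, ho⟩, hall⟩ := h
  let K : Subgroup Iso := centOf x ⊓ fixing fixd ⊓ psi.ker
  have hgens : ∀ g ∈ gens, g.ok = true ∧ ∃ k ∈ K, mat k = toMat g := by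
    intro g hgm
    have h1 := hg g hgm
    simp only [genOk, Bool.and_eq_true, List.all_eq_true, Bool.or_eq_true, Nat.beq_eq] at h1
    obtain ⟨⟨⟨hiso, hcomm⟩, hfx⟩, hord⟩ := h1
    obtain ⟨k, ek⟩ := exists_iso hiso
    have okg : g.ok = true := by rw [isoOk, Bool.and_eq_true] at hiso; exact hiso.1
    refine ⟨okg, k, ⟨⟨?_, fun f hfm => ?_⟩, MonoidHom.mem_ker.2 ?_⟩, ek⟩
    · refine Subgroup.mem_centralizer_singleton_iff.2 (mat_inj ?_)
      have e := congrArg toMat (eqM_eq hcomm)
      rw [toMat_mulM okg hA, toMat_mulM hA okg, ← hx, ← show mat k = toMat g from ek] at e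
      simpa [mat_mul] using e
    · show mat k *ᵥ vec f = vec f
      rw [show mat k = toMat g from ek, ← vec_app okg (hfx f hfm).1, (hfx f hfm).2]
    · rcases hord with h3 | ⟨h2, h4⟩
      · refine psi_eq_one_of_cube (mat_inj ?_)
        have e := congrArg toMat (eqM_eq h3)
        rw [toMat_mulM okg (ok_mulM _ _), toMat_mulM okg okg, toMat_idM,
          ← show mat k = toMat g from ek] at e
        simpa [mat_mul, pow_succ, mul_assoc] using e
      · have e := congrArg toMat (eqM_eq h2)
        rw [toMat_mulM okg okg, toMat_idM, ← show mat k = toMat g from ek] at e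
        rw [psi_involution (mat_inj (by simpa [mat_mul] using e)) okg ek,
          ← Nat.div_add_mod (moved g / 2) 2, h4, add_zero, pow_mul]
        simp
  intro g hgm
  obtain ⟨hgc, hgf⟩ := hgm
  have hcomm : ∀ u, mat g *ᵥ (mat x *ᵥ u) = mat x *ᵥ (mat g *ᵥ u) := fun u => by
    rw [Matrix.mulVec_mulVec, Matrix.mulVec_mulVec, ← mat_mul, ← mat_mul,
      Subgroup.mem_centralizer_singleton_iff.1 hgc]
  have hQg : ∀ u, Q (mat g *ᵥ u) = Q u := Q_mat g
  have hpol : ∀ u u', polar Q (mat g *ᵥ u) (mat g *ᵥ u') = polar Q u u' := by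
    intro u u'
    simp only [polar, ← Matrix.mulVec_add, hQg]
  set w := code (mat g *ᵥ vec v) with hwdef
  have hw : vec w = mat g *ᵥ vec v := vec_code _
  have okw : okV w = true := okV_code _
  have hap : ∀ {u : ℕ}, okV u = true → vec (app A u) = mat x *ᵥ vec u := fun hu => by
    rw [vec_app hA hu, hx]
  have hsame : sameData A fixd v w = true := by
    simp only [sameData, Bool.and_eq_true, Nat.beq_eq, List.all_eq_true]
    refine ⟨⟨cast_inj3 (qf_lt _) (qf_lt _) ?_, fun f hfm => ⟨⟨?_, ?_⟩, ?_⟩⟩, ?_⟩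
    · rw [qf_cast, qf_cast, hw, hQg]
    all_goals refine cast_inj3 (pol_lt _ _) (pol_lt _ _) ?_
    · rw [pol_cast okw (hf f hfm), pol_cast hv (hf f hfm), hw]
      conv_lhs => rw [← hgf f hfm]
      rw [hpol]
    · rw [pol_cast okw (okV_app _ _), pol_cast hv (okV_app _ _), hw]
      show polar Q _ (vec (app A f)) = polar Q _ (vec (app A f))
      rw [hap (hf f hfm)]
      conv_lhs => rw [← hgf f hfm, ← hcomm]
      rw [hpol]
    · rw [pol_cast okw (okV_app _ _), pol_cast hv (okV_app _ _), hw]
      show polar Q _ (vec (app A (app A f))) = polar Q _ (vec (app A (app A f)))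
      rw [hap (okV_app _ _), hap (hf f hfm)]
      conv_lhs => rw [← hgf f hfm, ← hcomm, ← hcomm]
      rw [hpol]
    · rw [pol_cast okw (okV_app _ _), pol_cast hv (okV_app _ _)]
      show polar Q _ (vec (app A w)) = polar Q _ (vec (app A v))
      rw [hap okw, hap hv, hw, ← hcomm, hpol]
  have hmem := hall w (code_mem _)
  rw [hsame, Bool.not_true, Bool.false_or, List.any_eq_true] at hmem
  obtain ⟨e, he, hew⟩ := hmem
  obtain ⟨k, hk, hkv⟩ := orbitOk_spec (K := K) hv hgens orb [] ho (by simp) e he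
  rw [Nat.eq_of_beq_eq_true hew, hw] at hkv
  have h1 : k⁻¹ * g ∈ centOf x ⊓ fixing (fixd ++ [v]) := by
    have hki := K.inv_mem hk
    refine ⟨(centOf x).mul_mem hki.1.1 hgc, fun f hfm => ?_⟩
    rcases List.mem_append.1 hfm with hfm | hfm
    · exact (fixing fixd).mul_mem hki.1.2 hgf f hfm
    · rw [List.mem_singleton.1 hfm, mat_mul, ← Matrix.mulVec_mulVec, ← hkv, Matrix.mulVec_mulVec,
        ← mat_mul, inv_mul_cancel]
      simp
  have := hrec _ h1
  rwa [map_mul, map_inv, MonoidHom.mem_ker.1 hk.2, inv_one, one_mul] at this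

/-- The powers of the matrix carry the fixed vectors onto a basis. -/
def spanOk (A : M7) (fixd : List ℕ) (picks : List (ℕ × ℕ)) (B Bi : M7) : Bool :=
  B.ok && Bi.ok && eqM (mulM B Bi) idM && Nat.beq picks.length 7 && fixd.all okV &&
  (List.finRange 7).all fun j =>
    let e := picks.getD j.val (0, 0)
    Nat.blt e.1 fixd.length &&
      Nat.beq (B.col j) (bif Nat.beq e.2 0 then fixd.getD e.1 0
        else bif Nat.beq e.2 1 then app A (fixd.getD e.1 0) else app A (app A (fixd.getD e.1 0)))

theorem eq_one_of_spanOk {A : M7} (hA : A.ok = true) {x : Iso} (hx : mat x = toMat A) {fixd : List ℕ}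
    {picks : List (ℕ × ℕ)} {B Bi : M7} (h : spanOk A fixd picks B Bi = true) :
    ∀ g ∈ centOf x ⊓ fixing fixd, psi g = 1 := by
  simp only [spanOk, Bool.and_eq_true, List.all_eq_true, List.mem_finRange, forall_const,
    Nat.blt_eq, Nat.beq_eq] at h
  obtain ⟨⟨⟨⟨⟨hB, hBi⟩, he⟩, -⟩, hf⟩, hj⟩ := h
  intro g hg
  obtain ⟨hgc, hgf⟩ := hg
  have hcomm : ∀ u, mat g *ᵥ (mat x *ᵥ u) = mat x *ᵥ (mat g *ᵥ u) := fun u => by
    rw [Matrix.mulVec_mulVec, Matrix.mulVec_mulVec, ← mat_mul, ← mat_mul,
      Subgroup.mem_centralizer_singleton_iff.1 hgc]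
  have hap : ∀ {u : ℕ}, okV u = true → vec (app A u) = mat x *ᵥ vec u := fun hu => by
    rw [vec_app hA hu, hx]
  have hcol : ∀ j, mat g *ᵥ vec (B.col j) = vec (B.col j) := by
    intro j
    obtain ⟨h1, h2⟩ := hj j
    set f := fixd.getD (picks.getD j.val (0, 0)).1 0
    have hfm : f ∈ fixd := by
      simp only [f]; rw [List.getD_eq_getElem _ _ h1]; exact List.getElem_mem _
    have hfix := hgf f hfm
    rw [h2]
    cases Nat.beq (picks.getD j.val (0, 0)).2 0
    · cases Nat.beq (picks.getD j.val (0, 0)).2 1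
      · simp only [cond_false]
        rw [hap (okV_app _ _), hap (hf f hfm), hcomm, hcomm, hfix]
      · simp only [cond_false, cond_true]
        rw [hap (hf f hfm), hcomm, hfix]
    · exact hfix
  have hgB : mat g * toMat B = toMat B := by
    ext i j
    exact congrFun (hcol (pos j)) i
  have e := congrArg toMat (eqM_eq he)
  rw [toMat_mulM hB hBi, toMat_idM] at e
  have : mat g = 1 := by
    calc mat g = mat g * (toMat B * toMat Bi) := by rw [e, mul_one]
      _ = toMat B * toMat Bi := by rw [← mul_assoc, hgB]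
      _ = 1 := e
  rw [show g = 1 from mat_inj (by simpa [mat_mul] using this), map_one]

end CfsgLib.OmegaSeven
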