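import Cfsg.Agent.Forms.Standard
import Cfsg.Agent.OrthOrder.Orders
import Cfsg.Agent.OrthOrder.Center
set_option autoImplicit false

/-!
Coded matrices over the field with three elements and the isometries of `quadFormOdd 3`.

A vector is stored as a number in base 256, one digit per coordinate in the flag order
`x₀' x₁' x₂' z y₂' y₁' y₀'`; a matrix is stored by its seven columns.
-/

namespace CfsgLib.OmegaSeven

open Matrix QuadraticMap CfsgLib.Forms

/-- The field. -/
abbrev F := ZMod 3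

/-- The index set. -/
abbrev Ix := Unit ⊕ (Fin 3 ⊕ Fin 3)

/-- The form. -/
abbrev Q : (Ix → F) → F := Cfsg.quadFormOdd 3 F

/-- The isometry group. -/
abbrev Iso : Subgroup (GL Ix F) := Cfsg.isometryGroup F Q

/-- Position of a coordinate in the flag. -/
def pos : Ix → Fin 7
  | .inl _ => 3
  | .inr (.inl i) => ![0, 1, 2] i
  | .inr (.inr i) => ![6, 5, 4] i

/-- Coordinate at a position. -/
def coord : Fin 7 → Ix :=
  ![.inr (.inl 0), .inr (.inl 1), .inr (.inl 2), .inl (), .inr (.inr 2), .inr (.inr 1), .inr (.inr 0)]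

theorem coord_pos : ∀ i : Ix, coord (pos i) = i := by decide

theorem pos_coord : ∀ k : Fin 7, pos (coord k) = k := by decide

/-- Positions and coordinates. -/
def posEquiv : Ix ≃ Fin 7 := ⟨pos, coord, coord_pos, pos_coord⟩

/-- Digit 0. -/
def d0 (n : ℕ) : ℕ := n % 256
/-- Digit 1. -/
def d1 (n : ℕ) : ℕ := n / 256 % 256
/-- Digit 2. -/
def d2 (n : ℕ) : ℕ := n / 65536 % 256
/-- Digit 3. -/
def d3 (n : ℕ) : ℕ := n / 16777216 % 256
/-- Digit 4. -/
def d4 (n : ℕ) : ℕ := n / 4294967296 % 256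
/-- Digit 5. -/
def d5 (n : ℕ) : ℕ := n / 1099511627776 % 256
/-- Digit 6. -/
def d6 (n : ℕ) : ℕ := n / 281474976710656

/-- The digits. -/
def dig (n : ℕ) : Fin 7 → ℕ := ![d0 n, d1 n, d2 n, d3 n, d4 n, d5 n, d6 n]

/-- Packing. -/
def pk (a0 a1 a2 a3 a4 a5 a6 : ℕ) : ℕ :=
  a0 + 256 * a1 + 65536 * a2 + 16777216 * a3 + 4294967296 * a4 + 1099511627776 * a5 +
    281474976710656 * a6

theorem dig_pk (a : Fin 7 → ℕ) (h : ∀ k, a k < 256) (k : Fin 7) :
    dig (pk (a 0) (a 1) (a 2) (a 3) (a 4) (a 5) (a 6)) k = a k := by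
  have h0 := h 0; have h1 := h 1; have h2 := h 2; have h3 := h 3
  have h4 := h 4; have h5 := h 5; have h6 := h 6
  fin_cases k <;> simp [dig, d0, d1, d2, d3, d4, d5, d6, pk] <;> omega

theorem pk_dig (n : ℕ) : pk (d0 n) (d1 n) (d2 n) (d3 n) (d4 n) (d5 n) (d6 n) = n := by
  simp only [pk, d0, d1, d2, d3, d4, d5, d6]
  omega

theorem ext_dig {u v : ℕ} (h : ∀ k, dig u k = dig v k) : u = v := by
  rw [← pk_dig u, ← pk_dig v]
  exact congr (congr (congr (congr (congr (congr (congr rfl (h 0)) (h 1)) (h 2)) (h 3)) (h 4)) (h 5)) (h 6)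

/-- Reduce every digit modulo 3. -/
def red (n : ℕ) : ℕ :=
  pk (d0 n % 3) (d1 n % 3) (d2 n % 3) (d3 n % 3) (d4 n % 3) (d5 n % 3) (d6 n % 3)

theorem dig_red (n : ℕ) (k : Fin 7) : dig (red n) k = dig n k % 3 := by
  have h := dig_pk (fun j => dig n j % 3) (fun j => by omega) k
  simpa [dig, red] using h

/-- A reduced vector. -/
def okV (v : ℕ) : Bool := Nat.beq (red v) v

theorem dig_lt {v : ℕ} (h : okV v = true) (k : Fin 7) : dig v k < 3 := by
  rw [← Nat.eq_of_beq_eq_true h, dig_red]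
  exact Nat.mod_lt _ (by norm_num)

theorem okV_red (n : ℕ) : okV (red n) = true := by
  rw [okV, Nat.beq_eq]
  exact ext_dig fun k => by rw [dig_red, dig_red, Nat.mod_mod]

/-- A coded matrix: its columns. -/
structure M7 where
  c0 : ℕ
  c1 : ℕ
  c2 : ℕ
  c3 : ℕ
  c4 : ℕ
  c5 : ℕ
  c6 : ℕ

/-- The columns. -/
def M7.col (A : M7) : Fin 7 → ℕ := ![A.c0, A.c1, A.c2, A.c3, A.c4, A.c5, A.c6]

/-- A reduced matrix. -/
def M7.ok (A : M7) : Bool :=
  okV A.c0 && okV A.c1 && okV A.c2 && okV A.c3 && okV A.c4 && okV A.c5 && okV A.c6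

theorem M7.ok_col {A : M7} (h : A.ok = true) (k : Fin 7) : okV (A.col k) = true := by
  simp only [M7.ok, Bool.and_eq_true] at h
  fin_cases k <;> simp [M7.col, h]

/-- Image of a vector. -/
def app (A : M7) (v : ℕ) : ℕ :=
  red (d0 v * A.c0 + d1 v * A.c1 + d2 v * A.c2 + d3 v * A.c3 + d4 v * A.c4 + d5 v * A.c5 + d6 v * A.c6)

/-- Product. -/
def mulM (A B : M7) : M7 :=
  ⟨app A B.c0, app A B.c1, app A B.c2, app A B.c3, app A B.c4, app A B.c5, app A B.c6⟩

theorem ok_mulM (A B : M7) : (mulM A B).ok = true := by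
  simp [M7.ok, mulM, app, okV_red]

/-- Equality test. -/
def eqM (A B : M7) : Bool :=
  Nat.beq A.c0 B.c0 && Nat.beq A.c1 B.c1 && Nat.beq A.c2 B.c2 && Nat.beq A.c3 B.c3 &&
    Nat.beq A.c4 B.c4 && Nat.beq A.c5 B.c5 && Nat.beq A.c6 B.c6

theorem eqM_eq {A B : M7} (h : eqM A B = true) : A = B := by
  simp only [eqM, Bool.and_eq_true, Nat.beq_eq] at h
  cases A; cases B
  simp_all

theorem eqM_self (A : M7) : eqM A A = true := by simp [eqM]

/-- The identity. -/
def idM : M7 :=
  ⟨1, 256, 65536, 16777216, 4294967296, 1099511627776, 281474976710656⟩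

/-- The matrix with given code. -/
def toMat (A : M7) : Matrix Ix Ix F := Matrix.of fun i j => (dig (A.col (pos j)) (pos i) : F)

/-- The vector with given code. -/
def vec (v : ℕ) : Ix → F := fun i => (dig v (pos i) : F)

theorem toMat_idM : toMat idM = 1 := by decide +kernel

theorem sum_Ix (f : Ix → F) : ∑ i, f i = f (coord 0) + f (coord 1) + f (coord 2) + f (coord 3) +
    f (coord 4) + f (coord 5) + f (coord 6) := by
  rw [← Equiv.sum_comp posEquiv.symm f, Fin.sum_univ_seven]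
  rfl

theorem vec_app {A : M7} (hA : A.ok = true) {v : ℕ} (hv : okV v = true) :
    vec (app A v) = toMat A *ᵥ vec v := by
  funext i
  let S : Fin 7 → ℕ := fun k => dig v 0 * dig (A.col 0) k + dig v 1 * dig (A.col 1) k +
    dig v 2 * dig (A.col 2) k + dig v 3 * dig (A.col 3) k + dig v 4 * dig (A.col 4) k +
    dig v 5 * dig (A.col 5) k + dig v 6 * dig (A.col 6) k
  have hS : ∀ k, S k < 256 := by
    intro k
    have hv' := fun j => Nat.le_of_lt_succ (dig_lt hv j)
    have hc := fun j => Nat.le_of_lt_succ (dig_lt (M7.ok_col hA j) k)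
    have hm : ∀ j, dig v j * dig (A.col j) k ≤ 4 := fun j => Nat.mul_le_mul (hv' j) (hc j)
    have := hm 0; have := hm 1; have := hm 2; have := hm 3
    have := hm 4; have := hm 5; have := hm 6
    simp only [S]
    omega
  have hlin : d0 v * A.c0 + d1 v * A.c1 + d2 v * A.c2 + d3 v * A.c3 + d4 v * A.c4 + d5 v * A.c5 +
      d6 v * A.c6 = pk (S 0) (S 1) (S 2) (S 3) (S 4) (S 5) (S 6) := by
    conv_lhs => rw [← pk_dig A.c0, ← pk_dig A.c1, ← pk_dig A.c2, ← pk_dig A.c3, ← pk_dig A.c4,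
      ← pk_dig A.c5, ← pk_dig A.c6]
    simp only [S, pk, dig, M7.col, Matrix.cons_val]
    ring
  rw [vec, app, dig_red, hlin, dig_pk S hS]
  rw [Matrix.mulVec, dotProduct, sum_Ix]
  simp only [toMat, Matrix.of_apply, vec, pos_coord, S]
  push_cast [ZMod.natCast_mod]
  ring

theorem col_eq_vec (A : M7) (i j : Ix) : toMat A i j = vec (A.col (pos j)) i := rfl

theorem toMat_mulM {A B : M7} (hA : A.ok = true) (hB : B.ok = true) :
    toMat (mulM A B) = toMat A * toMat B := by
  ext i j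
  have hc : (mulM A B).col (pos j) = app A (B.col (pos j)) := by
    generalize pos j = k
    fin_cases k <;> rfl
  rw [col_eq_vec, hc, vec_app hA (M7.ok_col hB _)]
  rfl

theorem vec_inj {u v : ℕ} (hu : okV u = true) (hv : okV v = true) (h : vec u = vec v) : u = v := by
  have h1 : ∀ k, dig u k = dig v k := by
    intro k
    have := congrFun h (coord k)
    simp only [vec, pos_coord] at this
    rw [ZMod.natCast_eq_natCast_iff'] at this
    rwa [Nat.mod_eq_of_lt (dig_lt hu k), Nat.mod_eq_of_lt (dig_lt hv k)] at this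
  rw [← pk_dig u, ← pk_dig v]
  have e0 := h1 0; have e1 := h1 1; have e2 := h1 2; have e3 := h1 3
  have e4 := h1 4; have e5 := h1 5; have e6 := h1 6
  simp [dig] at e0 e1 e2 e3 e4 e5 e6
  rw [e0, e1, e2, e3, e4, e5, e6]

theorem toMat_inj {A B : M7} (hA : A.ok = true) (hB : B.ok = true) (h : toMat A = toMat B) :
    A = B := by
  have hc : ∀ k, A.col k = B.col k := fun k => vec_inj (M7.ok_col hA k) (M7.ok_col hB k) <| by
    funext i
    have := congrFun (congrFun h i) (coord k)
    simpa [col_eq_vec, pos_coord] using this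
  have e0 := hc 0; have e1 := hc 1; have e2 := hc 2; have e3 := hc 3
  have e4 := hc 4; have e5 := hc 5; have e6 := hc 6
  simp [M7.col] at e0 e1 e2 e3 e4 e5 e6
  cases A; cases B
  simp_all

/-- Code of a vector. -/
def code (f : Ix → F) : ℕ :=
  pk (f (coord 0)).val (f (coord 1)).val (f (coord 2)).val (f (coord 3)).val (f (coord 4)).val
    (f (coord 5)).val (f (coord 6)).val

theorem dig_code (f : Ix → F) (k : Fin 7) : dig (code f) k = (f (coord k)).val :=
  dig_pk (fun k => (f (coord k)).val) (fun k => (ZMod.val_lt _).trans (by norm_num)) k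

theorem vec_code (f : Ix → F) : vec (code f) = f := by
  funext i
  rw [vec, dig_code, coord_pos, ZMod.natCast_val, ZMod.cast_id]

/-- All vectors in the first positions. -/
def allV : ℕ → List ℕ
  | 0 => [0]
  | k + 1 => (allV k).flatMap fun t => [256 * t, 256 * t + 1, 256 * t + 2]

theorem mem_allV_succ {k : ℕ} {t a : ℕ} (ht : t ∈ allV k) (ha : a < 3) :
    a + 256 * t ∈ allV (k + 1) := by
  simp only [allV, List.mem_flatMap]
  refine ⟨t, ht, ?_⟩
  interval_cases a <;> simp [Nat.add_comm]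

theorem code_mem (f : Ix → F) : code f ∈ allV 7 := by
  have hv : ∀ k, (f (coord k)).val < 3 := fun k => ZMod.val_lt _
  have h0 : 0 ∈ allV 0 := List.mem_singleton_self 0
  have h := mem_allV_succ (mem_allV_succ (mem_allV_succ (mem_allV_succ (mem_allV_succ (mem_allV_succ
    (mem_allV_succ h0 (hv 6)) (hv 5)) (hv 4)) (hv 3)) (hv 2)) (hv 1)) (hv 0)
  convert h using 1
  simp only [code, pk]
  ring

theorem okV_code (f : Ix → F) : okV (code f) = true := by
  rw [okV, Nat.beq_eq]
  exact ext_dig fun k => by rw [dig_red, dig_code]; exact Nat.mod_eq_of_lt (ZMod.val_lt _)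

/-! ### The form -/

/-- The form on codes. -/
def qf (v : ℕ) : ℕ := (d3 v * d3 v + d0 v * d6 v + d1 v * d5 v + d2 v * d4 v) % 3

theorem qf_cast (v : ℕ) : (qf v : F) = Q (vec v) := by
  simp [qf, Q, Cfsg.quadFormOdd, vec, pos, dig, Fin.sum_univ_three, ZMod.natCast_mod]
  ring

theorem qf_lt (v : ℕ) : qf v < 3 := Nat.mod_lt _ (by norm_num)

/-- The polar form on codes. -/
def pol (u v : ℕ) : ℕ := (qf (red (u + v)) + 2 * qf u + 2 * qf v) % 3

theorem vec_red_add {u v : ℕ} (hu : okV u = true) (hv : okV v = true) :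
    vec (red (u + v)) = vec u + vec v := by
  funext i
  have h : dig (u + v) (pos i) = dig u (pos i) + dig v (pos i) := by
    have a := dig_lt hu; have b := dig_lt hv
    conv_lhs => rw [← pk_dig u, ← pk_dig v]
    rw [show pk (d0 u) (d1 u) (d2 u) (d3 u) (d4 u) (d5 u) (d6 u) +
      pk (d0 v) (d1 v) (d2 v) (d3 v) (d4 v) (d5 v) (d6 v) =
      pk (dig u 0 + dig v 0) (dig u 1 + dig v 1) (dig u 2 + dig v 2) (dig u 3 + dig v 3)
        (dig u 4 + dig v 4) (dig u 5 + dig v 5) (dig u 6 + dig v 6) by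
        simp [pk, dig]; ring]
    exact dig_pk (fun k => dig u k + dig v k) (fun k => by have := a k; have := b k; omega) _
  rw [vec, dig_red, h, Pi.add_apply]
  push_cast [ZMod.natCast_mod]
  rfl

theorem pol_cast {u v : ℕ} (hu : okV u = true) (hv : okV v = true) :
    (pol u v : F) = polar Q (vec u) (vec v) := by
  rw [pol, polar, ← vec_red_add hu hv, ← qf_cast, ← qf_cast, ← qf_cast]
  push_cast [ZMod.natCast_mod]
  rw [show (2 : F) = -1 by decide]
  ring

theorem pol_lt (u v : ℕ) : pol u v < 3 := Nat.mod_lt _ (by norm_num)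

theorem cast_inj3 {a b : ℕ} (ha : a < 3) (hb : b < 3) (h : (a : F) = (b : F)) : a = b := by
  rwa [ZMod.natCast_eq_natCast_iff', Nat.mod_eq_of_lt ha, Nat.mod_eq_of_lt hb] at h

/-! ### Isometries -/

theorem mem_Iso {g : GL Ix F} : g ∈ Iso ↔ ∀ v, Q ((g : Matrix Ix Ix F) *ᵥ v) = Q v :=
  ⟨fun h v => h v 0, fun h u _ => h u⟩

/-- The columns have the values of the standard basis. -/
def isoOk (A : M7) : Bool :=
  A.ok && (List.finRange 7).all fun i => (List.finRange 7).all fun j =>
    Nat.beq (pol (A.col i) (A.col j)) (pol (idM.col i) (idM.col j))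

theorem idM_ok : idM.ok = true := by decide +kernel

theorem exists_iso {A : M7} (h : isoOk A = true) :
    ∃ g : Iso, ((g : GL Ix F) : Matrix Ix Ix F) = toMat A := by
  rw [isoOk, Bool.and_eq_true] at h
  obtain ⟨hA, hp⟩ := h
  simp only [List.all_eq_true, List.mem_finRange, forall_const, Nat.beq_eq] at hp
  have h2 : (2 : F) ≠ 0 := by decide
  have hnd := nondegenerate_quadOdd (F := F) 3 h2
  have hcol : ∀ (B : M7) (j : Ix), B.ok = true →
      toMat B *ᵥ Pi.single j 1 = vec (B.col (pos j)) := by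
    intro B j _
    rw [Matrix.mulVec_single_one]
    funext i
    rfl
  have hbil : (polarBilin (quadOdd F 3)).compl₁₂ (toMat A).mulVecLin (toMat A).mulVecLin =
      polarBilin (quadOdd F 3) := by
    refine LinearMap.ext_basis (Pi.basisFun F Ix) (Pi.basisFun F Ix) fun i j => ?_
    simp only [LinearMap.compl₁₂_apply, Matrix.mulVecLin_apply, Pi.basisFun_apply,
      polarBilin_apply_apply, coe_quadOdd]
    rw [hcol A i hA, hcol A j hA, ← pol_cast (M7.ok_col hA _) (M7.ok_col hA _), hp,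
      pol_cast (M7.ok_col idM_ok _) (M7.ok_col idM_ok _), ← hcol idM i idM_ok,
      ← hcol idM j idM_ok, toMat_idM, Matrix.one_mulVec, Matrix.one_mulVec]
  have hpol : ∀ u v, polar Q (toMat A *ᵥ u) (toMat A *ᵥ v) = polar Q u v := by
    intro u v
    have := LinearMap.congr_fun₂ hbil u v
    simpa [LinearMap.compl₁₂_apply, polarBilin_apply_apply] using this
  have hQ : ∀ v, Q (toMat A *ᵥ v) = Q v := by
    intro v
    have e : ∀ w, polar Q w w = (2 : F) * Q w := by
      intro w
      have := QuadraticMap.polar_self (quadOdd F 3) w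
      simpa [two_smul, two_mul] using this
    have := hpol v v
    rw [e, e] at this
    exact mul_left_cancel₀ h2 this
  have hu : IsUnit (toMat A) := by
    rw [← Matrix.mulVec_injective_iff_isUnit]
    intro u v huv
    refine sub_eq_zero.1 (nondegenerate_iff.1 hnd (u - v) fun w => ?_)
    rw [coe_quadOdd]
    have := hpol (u - v) w
    rw [Matrix.mulVec_sub, huv, sub_self] at this
    rw [← this]
    simp [polar, Q, Cfsg.quadFormOdd]
  exact ⟨⟨hu.unit, mem_Iso.2 fun v => hQ v⟩, rfl⟩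

/-- The code matrix is an isometry in the commutator subgroup. -/
def InOm (A : M7) : Prop :=
  A.ok = true ∧ ∃ g ∈ Cfsg.Omega F Q, (((g : Iso) : GL Ix F) : Matrix Ix Ix F) = toMat A

theorem InOm.mul {A B : M7} (hA : InOm A) (hB : InOm B) : InOm (mulM A B) := by
  obtain ⟨okA, g, hg, eg⟩ := hA
  obtain ⟨okB, k, hk, ek⟩ := hB
  exact ⟨ok_mulM A B, g * k, mul_mem hg hk, by simp [toMat_mulM okA okB, eg, ek]⟩

theorem inOm_id : InOm idM :=
  ⟨idM_ok, 1, one_mem _, by simp [toMat_idM]⟩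

theorem iso_ext {g k : Iso}
    (h : ((g : GL Ix F) : Matrix Ix Ix F) = ((k : GL Ix F) : Matrix Ix Ix F)) : g = k :=
  Subtype.ext (Units.ext h)

/-- A commutator witness: `h x = c x h`. -/
def commOk (h x c : M7) : Bool :=
  isoOk h && isoOk x && c.ok && eqM (mulM h x) (mulM c (mulM x h))

theorem InOm.of_commOk {h x c : M7} (hc : commOk h x c = true) : InOm c := by
  simp only [commOk, Bool.and_eq_true] at hc
  obtain ⟨⟨⟨hh, hx⟩, hcok⟩, he⟩ := hc
  obtain ⟨g, eg⟩ := exists_iso hh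
  obtain ⟨k, ek⟩ := exists_iso hx
  have okh : h.ok = true := (Bool.and_eq_true _ _ ▸ hh : _ ∧ _).1
  have okx : x.ok = true := (Bool.and_eq_true _ _ ▸ hx : _ ∧ _).1
  have e := congrArg toMat (eqM_eq he)
  rw [toMat_mulM okh okx, toMat_mulM hcok (ok_mulM _ _), toMat_mulM okx okh, ← eg, ← ek] at e
  have hmem : g * k * g⁻¹ * k⁻¹ ∈ Cfsg.Omega F Q :=
    Subgroup.commutator_mem_commutator (Subgroup.mem_top g) (Subgroup.mem_top k)
  refine ⟨hcok, g * k * g⁻¹ * k⁻¹, hmem, ?_⟩
  have e2 : ((((g * k) : Iso) : GL Ix F) : Matrix Ix Ix F) =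
      toMat c * ((((k * g) : Iso) : GL Ix F) : Matrix Ix Ix F) := by simpa [mul_assoc] using e
  have e3 : g * k * g⁻¹ * k⁻¹ * (k * g) = g * k := by group
  rw [← e3, Subgroup.coe_mul, Units.val_mul] at e2
  exact (Units.isUnit _).mul_right_cancel e2

end CfsgLib.OmegaSeven
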