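import Cfsg.Agent.OmegaSeven.Sylow
import Cfsg.Agent.OmegaSeven.DataRoots
import Cfsg.Agent.OmegaSeven.DataVerd
set_option autoImplicit false

/-!
The checks of the case list.
-/

namespace CfsgLib.OmegaSeven

open Matrix

/-- Root elements and their squares, positive and negative. -/
def letters : List M7 :=
  (roots ++ negRoots) ++ (roots ++ negRoots).map fun g => mulM g g

/-- Value of a word. -/
def evalW : List ℕ → M7
  | [] => idM
  | k :: r => mulM (letters.getD k idM) (evalW r)

/-- All products, in order. -/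
def prods : List M7 → List M7
  | [] => [idM]
  | x :: rest => [idM, x, mulM x x].flatMap fun e => (prods rest).map fun t => mulM e t

/-- Equality of lists. -/
def eqL : List M7 → List M7 → Bool
  | [], [] => true
  | a :: r, b :: t => eqM a b && eqL r t
  | _, _ => false

theorem eqL_eq : ∀ {l m : List M7}, eqL l m = true → l = m
  | [], [], _ => rfl
  | [], _ :: _, h => by simp [eqL] at h
  | _ :: _, [], h => by simp [eqL] at h
  | a :: r, b :: t, h => by
    rw [eqL, Bool.and_eq_true] at h
    rw [eqM_eq h.1, eqL_eq h.2]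

/-- Element at a place of the case list. -/
def elemAt (r w : ℕ) : M7 := mulM (upper.getD (repIdx.getD r 0) idM) (lower.getD w idM)

/-- Look-up of a verdict. -/
def verdAt (r w : ℕ) : Verdict := (verds.getD r []).getD w .one

/-- The rank of a place; zero for the places without a representative. -/
def rankAt (r w : ℕ) : ℕ :=
  match verdAt r w with
  | .one => 0
  | .cube _ => 0
  | .root _ => 1
  | .step n _ _ _ => n

/-- Check of one verdict. -/
def caseOk (r w : ℕ) : Verdict → Bool
  | .one => eqM (elemAt r w) idM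
  | .cube j =>
    if hj : j < 7 then
      !(Nat.beq (app (elemAt r w) (app (elemAt r w) (app (elemAt r w) (idM.col ⟨j, hj⟩)))) (idM.col ⟨j, hj⟩))
    else false
  | .root i => Nat.blt i 7 && eqM (elemAt r w) (classReps.getD i idM)
  | .step n h r' w' =>
    Nat.blt h hs.length && Nat.blt r' 17 && Nat.blt w' 243 && Nat.blt (rankAt r' w') n &&
      Nat.blt 0 (rankAt r' w') &&
      eqM (mulM (hs.getD h idM) (elemAt r w)) (mulM (elemAt r' w') (hs.getD h idM))

/-- Check of one row. -/
def rowOk (r : ℕ) : Bool := (List.range 243).all fun w => caseOk r w (verdAt r w)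

/-- Check of the first layer: conjugation to the representatives. -/
def headOk : Bool :=
  Nat.beq repIdx.length 17 && Nat.beq upper.length 81 && Nat.beq lower.length 243 &&
  (repIdx.all fun i => Nat.blt i 81) &&
  (List.range 81).all fun i =>
    Nat.blt (cjs.getD i 0) 81 && Nat.blt (rep.getD i 0) 17 &&
    eqBlk (mulM (upper.getD (cjs.getD i 0) idM) (upper.getD i idM))
      (mulM (upper.getD (repIdx.getD (rep.getD i 0) 0) idM) (upper.getD (cjs.getD i 0) idM))

/-- The middle blocks are distinct. -/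
def blkNodup : Bool :=
  (List.range 81).all fun i => (List.range 81).all fun j =>
    Nat.beq i j || !(eqBlk (upper.getD i idM) (upper.getD j idM))

/-- The second layer has no repetition. -/
def lowerNodup : Bool :=
  (List.range 243).all fun i => (List.range 243).all fun j =>
    !(Nat.blt i j) || !(eqM (lower.getD i idM) (lower.getD j idM))

/-- Words of the conjugators. -/
def wordsOk : Bool := eqL (hWords.map evalW) hs

/-- The root elements are commutators. -/
def rootsOk : Bool :=
  Nat.beq diags.length 18 &&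
  (List.range 18).all fun k =>
    commOk (diags.getD k idM) ((roots ++ negRoots).getD k idM) ((roots ++ negRoots).getD k idM)

/-- The upper root elements are unitriangular. -/
def rootsUni : Bool := Nat.beq roots.length 9 && roots.all uniOk

/-- The layers are the products. -/
def layersOk : Bool := eqL (prods (roots.take 4)) upper && eqL (prods (roots.drop 4)) lower

/-- All checks. -/
structure Checks : Prop where
  roots_ok : rootsOk = true
  roots_uni : rootsUni = true
  layers : layersOk = true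
  words : wordsOk = true
  head : headOk = true
  blk_nodup : blkNodup = true
  lower_nodup : lowerNodup = true
  rows : ∀ r < 17, rowOk r = true

theorem getD_mem_of_lt {α : Type} {l : List α} {i : ℕ} {d : α} (h : i < l.length) : l.getD i d ∈ l := by
  rw [List.getD_eq_getElem _ _ h]
  exact List.getElem_mem h

theorem getD_of_forall {α : Type} {P : α → Prop} {l : List α} {d : α} (hd : P d)
    (h : ∀ a ∈ l, P a) (i : ℕ) : P (l.getD i d) := by
  rcases lt_or_ge i l.length with hi | hi
  · exact h _ (getD_mem_of_lt hi)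
  · rw [List.getD_eq_default _ _ hi]; exact hd

theorem inOm_prods : ∀ {l : List M7}, (∀ x ∈ l, InOm x) → ∀ e ∈ prods l, InOm e
  | [], _, e, he => by rw [prods, List.mem_singleton] at he; exact he ▸ inOm_id
  | x :: rest, h, e, he => by
    simp only [prods, List.mem_flatMap, List.mem_cons, List.not_mem_nil, or_false, List.mem_map] at he
    obtain ⟨a, ha, t, ht, rfl⟩ := he
    have hx := h x List.mem_cons_self
    have ht' := inOm_prods (fun y hy => h y (List.mem_cons_of_mem _ hy)) t ht
    rcases ha with rfl | rfl | rfl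
    · exact inOm_id.mul ht'
    · exact hx.mul ht'
    · exact (hx.mul hx).mul ht'

theorem uni_prods : ∀ {l : List M7}, (∀ x ∈ l, uniOk x = true) →
    ∀ e ∈ prods l, e.ok = true ∧ Uni (toMat e)
  | [], _, e, he => by
    rw [prods, List.mem_singleton] at he
    subst he
    exact ⟨idM_ok, by rw [toMat_idM]; exact uni_one⟩
  | x :: rest, h, e, he => by
    simp only [prods, List.mem_flatMap, List.mem_cons, List.not_mem_nil, or_false, List.mem_map] at he
    obtain ⟨a, ha, t, ht, rfl⟩ := he
    have hx := h x List.mem_cons_self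
    have okx : x.ok = true := by rw [uniOk, Bool.and_eq_true] at hx; exact hx.1
    obtain ⟨okt, ut⟩ := uni_prods (fun y hy => h y (List.mem_cons_of_mem _ hy)) t ht
    have haU : a.ok = true ∧ Uni (toMat a) := by
      rcases ha with rfl | rfl | rfl
      · exact ⟨idM_ok, by rw [toMat_idM]; exact uni_one⟩
      · exact ⟨okx, uni_of_uniOk hx⟩
      · refine ⟨ok_mulM _ _, ?_⟩
        rw [toMat_mulM okx okx]
        exact (uni_of_uniOk hx).mul (uni_of_uniOk hx)
    refine ⟨ok_mulM _ _, ?_⟩
    rw [toMat_mulM haU.1 okt]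
    exact haU.2.mul ut

namespace Checks

variable (H : Checks)
include H

theorem letter_inOm : ∀ g ∈ roots ++ negRoots, InOm g := by
  have h := H.roots_ok
  simp only [rootsOk, Bool.and_eq_true, List.all_eq_true, List.mem_range] at h
  intro g hg
  obtain ⟨i, hi, rfl⟩ := List.getElem_of_mem hg
  have hi' : i < 18 := lt_of_lt_of_le hi (le_of_eq (by rfl))
  have := InOm.of_commOk (h.2 i hi')
  rwa [List.getD_eq_getElem _ _ hi] at this

theorem evalW_inOm : ∀ w, InOm (evalW w)
  | [] => inOm_id
  | k :: r => by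
    refine InOm.mul (getD_of_forall inOm_id (fun g hg => ?_) k) (evalW_inOm r)
    rcases List.mem_append.1 hg with hg | hg
    · exact H.letter_inOm g hg
    · obtain ⟨a, ha, rfl⟩ := List.mem_map.1 hg
      exact (H.letter_inOm a ha).mul (H.letter_inOm a ha)

theorem hs_inOm (i : ℕ) : InOm (hs.getD i idM) := by
  refine getD_of_forall inOm_id (fun g hg => ?_) i
  rw [← eqL_eq H.words] at hg
  obtain ⟨w, -, rfl⟩ := List.mem_map.1 hg
  exact H.evalW_inOm w

theorem upper_eq : prods (roots.take 4) = upper ∧ prods (roots.drop 4) = lower := by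
  have h := H.layers
  rw [layersOk, Bool.and_eq_true] at h
  exact ⟨eqL_eq h.1, eqL_eq h.2⟩

theorem root_uni : ∀ x ∈ roots, uniOk x = true := by
  have h := H.roots_uni
  rw [rootsUni, Bool.and_eq_true, List.all_eq_true] at h
  exact h.2

theorem upper_mem (i : ℕ) :
    InOm (upper.getD i idM) ∧ Uni (toMat (upper.getD i idM)) := by
  refine getD_of_forall (P := fun g => InOm g ∧ Uni (toMat g))
    ⟨inOm_id, by rw [toMat_idM]; exact uni_one⟩ (fun g hg => ?_) i
  rw [← H.upper_eq.1] at hg
  exact ⟨inOm_prods (fun x hx => H.letter_inOm x (List.mem_append_left _ (List.mem_of_mem_take hx))) g hg,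
    (uni_prods (fun x hx => H.root_uni x (List.mem_of_mem_take hx)) g hg).2⟩

theorem lower_mem (i : ℕ) :
    InOm (lower.getD i idM) ∧ Uni (toMat (lower.getD i idM)) := by
  refine getD_of_forall (P := fun g => InOm g ∧ Uni (toMat g))
    ⟨inOm_id, by rw [toMat_idM]; exact uni_one⟩ (fun g hg => ?_) i
  rw [← H.upper_eq.2] at hg
  exact ⟨inOm_prods (fun x hx => H.letter_inOm x (List.mem_append_left _ (List.mem_of_mem_drop hx))) g hg,
    (uni_prods (fun x hx => H.root_uni x (List.mem_of_mem_drop hx)) g hg).2⟩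

theorem blk_inj {i j : ℕ} (hi : i < 81) (hj : j < 81)
    (h : blk (toMat (upper.getD i idM)) = blk (toMat (upper.getD j idM))) : i = j := by
  have e := H.blk_nodup
  simp only [blkNodup, List.all_eq_true, List.mem_range, Bool.or_eq_true, Bool.not_eq_true',
    Nat.beq_eq] at e
  rcases e i hi j hj with e | e
  · exact e
  · rw [(blk_eq_iff (H.upper_mem i).1.1 (H.upper_mem j).1.1).1 h] at e
    exact absurd e (by simp)

theorem lengths : repIdx.length = 17 ∧ upper.length = 81 ∧ lower.length = 243 ∧
    ∀ r, repIdx.getD r 0 < 81 := by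
  have h := H.head
  simp only [headOk, Bool.and_eq_true, Nat.beq_eq, List.all_eq_true, Nat.blt_eq] at h
  exact ⟨h.1.1.1.1, h.1.1.1.2, h.1.1.2, getD_of_forall (by norm_num) h.1.2⟩

/-- The element at a place of the Sylow subgroup. -/
noncomputable def uAt (i : ℕ) : Iso := (H.upper_mem i).1.2.choose

theorem uAt_spec (i : ℕ) : H.uAt i ∈ Cfsg.Omega F Q ∧ mat (H.uAt i) = toMat (upper.getD i idM) :=
  (H.upper_mem i).1.2.choose_spec

/-- The element of the second layer. -/
noncomputable def wAt (i : ℕ) : Iso := (H.lower_mem i).1.2.choose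

theorem wAt_spec (i : ℕ) : H.wAt i ∈ Cfsg.Omega F Q ∧ mat (H.wAt i) = toMat (lower.getD i idM) :=
  (H.lower_mem i).1.2.choose_spec

theorem uAt_uni (i : ℕ) : H.uAt i ∈ uniGroup := by
  rw [mem_uniGroup, (H.uAt_spec i).2]; exact (H.upper_mem i).2

theorem wAt_uni (i : ℕ) : H.wAt i ∈ uniGroup := by
  rw [mem_uniGroup, (H.wAt_spec i).2]; exact (H.lower_mem i).2

theorem blk_lower (i : ℕ) : blk (mat (H.wAt i)) = 1 := by
  have h : ∀ g ∈ lower, eqBlk g idM = true :=
    List.all_eq_true.1 (by decide +kernel : lower.all (fun g => eqBlk g idM) = true)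
  rw [(H.wAt_spec i).2, ← blk_one, ← toMat_idM]
  exact (blk_eq_iff (H.lower_mem i).1.1 idM_ok).2
    (getD_of_forall (P := fun g => eqBlk g idM = true) (by decide +kernel) h i)

/-- The places. -/
noncomputable def place (p : Fin 81 × Fin 243) : uniGroup :=
  ⟨H.uAt p.1 * H.wAt p.2, mul_mem (H.uAt_uni _) (H.wAt_uni _)⟩

theorem place_injective : Function.Injective H.place := by
  rintro ⟨i, j⟩ ⟨i', j'⟩ h
  have h' : H.uAt i * H.wAt j = H.uAt i' * H.wAt j' := congrArg Subtype.val h
  have hb : blk (toMat (upper.getD i.val idM)) = blk (toMat (upper.getD i'.val idM)) := by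
    have := congrArg (fun z => blk (mat z)) h'
    simp only [mat_mul] at this
    rwa [blk_mul (H.uAt_uni _) (H.wAt_uni _), blk_mul (H.uAt_uni _) (H.wAt_uni _), H.blk_lower,
      H.blk_lower, mul_one, mul_one, (H.uAt_spec _).2, (H.uAt_spec _).2] at this
  have hii : i = i' := Fin.ext (H.blk_inj i.isLt i'.isLt hb)
  subst hii
  have hw := congrArg mat (mul_left_cancel h')
  rw [(H.wAt_spec _).2, (H.wAt_spec _).2] at hw
  have he := toMat_inj (H.lower_mem _).1.1 (H.lower_mem _).1.1 hw
  have hn := H.lower_nodup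
  simp only [lowerNodup, List.all_eq_true, List.mem_range, Bool.or_eq_true, Bool.not_eq_true'] at hn
  rcases lt_trichotomy j.val j'.val with hl | hl | hl
  · rcases hn j j.isLt j' j'.isLt with e | e
    · have h0 : Nat.blt j.val j'.val = true := by simpa using hl
      rw [h0] at e; simp at e
    · rw [he, eqM_self] at e; simp at e
  · rw [Fin.ext hl]
  · rcases hn j' j'.isLt j j.isLt with e | e
    · have h0 : Nat.blt j'.val j.val = true := by simpa using hl
      rw [h0] at e; simp at e
    · rw [he, eqM_self] at e; simp at e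

/-- Every element of the Sylow subgroup has one place. -/
theorem exists_place {g : Iso} (hg : g ∈ uniGroup) :
    ∃ i < 81, ∃ j < 243, g = H.uAt i * H.wAt j := by
  have hbij : Function.Bijective H.place :=
    (Nat.bijective_iff_injective_and_card H.place).2 ⟨H.place_injective,
      le_antisymm (Nat.card_le_card_of_injective _ H.place_injective)
        (by simpa [Nat.card_prod] using card_uniGroup_le)⟩
  obtain ⟨⟨i, j⟩, h⟩ := hbij.2 ⟨g, hg⟩
  exact ⟨i, i.isLt, j, j.isLt, (congrArg Subtype.val h).symm⟩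

theorem uniGroup_le : uniGroup ≤ Cfsg.Omega F Q := fun g hg => by
  obtain ⟨i, -, j, -, rfl⟩ := H.exists_place hg
  exact mul_mem (H.uAt_spec i).1 (H.wAt_spec j).1

theorem card_uniGroup : Nat.card uniGroup = 3 ^ 9 :=
  le_antisymm card_uniGroup_le
    (by simpa [Nat.card_prod] using Nat.card_le_card_of_injective _ H.place_injective)

theorem elemAt_spec (r w : ℕ) :
    (elemAt r w).ok = true ∧ mat (H.uAt (repIdx.getD r 0) * H.wAt w) = toMat (elemAt r w) := by
  refine ⟨ok_mulM _ _, ?_⟩
  rw [mat_mul, (H.uAt_spec _).2, (H.wAt_spec _).2, elemAt,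
    toMat_mulM (H.upper_mem _).1.1 (H.lower_mem _).1.1]

/-- Conjugate in `Ω` to a representative. -/
def Hits (g : Iso) : Prop :=
  ∃ i < 7, ∃ h ∈ Cfsg.Omega F Q, ∃ y : Iso,
    mat y = toMat (classReps.getD i idM) ∧ h * g * h⁻¹ = y

theorem hits_place : ∀ (n r w : ℕ), rankAt r w < n → r < 17 → w < 243 → 0 < rankAt r w →
    Hits (H.uAt (repIdx.getD r 0) * H.wAt w)
  | 0, _, _, h, _, _, _ => absurd h (Nat.not_lt_zero _)
  | n + 1, r, w, hn, hr, hw, h0 => by
    have hc := H.rows r hr
    simp only [rowOk, List.all_eq_true, List.mem_range] at hc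
    have hc := hc w hw
    obtain ⟨okx, ex⟩ := H.elemAt_spec r w
    simp only [rankAt] at hn h0
    cases hv : verdAt r w with
    | one => rw [hv] at h0; simp at h0
    | cube j => rw [hv] at h0; simp at h0
    | root i =>
      rw [hv] at hc
      simp only [caseOk, Bool.and_eq_true, Nat.blt_eq] at hc
      refine ⟨i, hc.1, 1, one_mem _, _, ?_, (by rw [one_mul, inv_one, mul_one])⟩
      rw [ex, eqM_eq hc.2]
    | step m h r' w' =>
      rw [hv] at hc hn
      simp only [caseOk, Bool.and_eq_true, Nat.blt_eq] at hc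
      obtain ⟨⟨⟨⟨⟨-, hr'⟩, hw'⟩, hlt⟩, hpos⟩, heq⟩ := hc
      obtain ⟨i, hi, k, hk, y, hy, hky⟩ :=
        hits_place n r' w' (lt_of_lt_of_le hlt (Nat.le_of_lt_succ hn)) hr' hw' hpos
      obtain ⟨okh, a, ha, ea⟩ := H.hs_inOm h
      obtain ⟨okp, ep⟩ := H.elemAt_spec r' w'
      refine ⟨i, hi, k * a, mul_mem hk ha, y, hy, ?_⟩
      have e := congrArg toMat (eqM_eq heq)
      rw [toMat_mulM okh okx, toMat_mulM okp okh, ← ex, ← ep, ← show mat a = _ from ea,
        ← mat_mul, ← mat_mul] at e
      have e' := mat_inj e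
      rw [← hky, show k * a * (H.uAt (repIdx.getD r 0) * H.wAt w) * (k * a)⁻¹ =
        k * (a * (H.uAt (repIdx.getD r 0) * H.wAt w)) * a⁻¹ * k⁻¹ by group, e']
      group

theorem hits_of_mem {g : Iso} (hg : g ∈ uniGroup) (h3 : g ^ 3 = 1) (h1 : g ≠ 1) : Hits g := by
  obtain ⟨i, hi, j, hj, rfl⟩ := H.exists_place hg
  have hh := H.head
  simp only [headOk, Bool.and_eq_true, List.all_eq_true, List.mem_range, Nat.blt_eq] at hh
  obtain ⟨⟨hcj, hrep⟩, hblk⟩ := hh.2 i hi
  set c := cjs.getD i 0
  set r := rep.getD i 0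
  have hcU := H.uAt_uni c
  have hgU : H.uAt i * H.wAt j ∈ uniGroup := hg
  obtain ⟨k, hk, l, hl, hkl⟩ :=
    H.exists_place (mul_mem (mul_mem hcU hgU) (inv_mem hcU))
  have hbk : blk (mat (H.uAt k)) = blk (mat (H.uAt (repIdx.getD r 0))) := by
    refine blk_cancel (H.uAt_uni _) (H.uAt_uni _) hcU ?_
    have e1 : H.uAt c * (H.uAt i * H.wAt j) = H.uAt k * H.wAt l * H.uAt c := by rw [← hkl]; group
    have e2 := congrArg (fun z => blk (mat z)) e1
    simp only [mat_mul, blk_mul hcU ((H.uAt_uni i).mul (H.wAt_uni j)),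
      blk_mul (H.uAt_uni _) (H.wAt_uni _),
      blk_mul ((H.uAt_uni k).mul (H.wAt_uni l)) hcU, H.blk_lower, mul_one] at e2
    rw [← e2]
    have hb := (blk_eq_iff (ok_mulM _ _) (ok_mulM _ _)).2 hblk
    rw [toMat_mulM (H.upper_mem _).1.1 (H.upper_mem _).1.1,
      toMat_mulM (H.upper_mem _).1.1 (H.upper_mem _).1.1, ← (H.uAt_spec _).2, ← (H.uAt_spec _).2,
      ← (H.uAt_spec _).2, blk_mul (H.uAt_uni _) (H.uAt_uni _),
      blk_mul (H.uAt_uni _) (H.uAt_uni _)] at hb
    exact hb
  rw [(H.uAt_spec _).2, (H.uAt_spec _).2] at hbk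
  have hke := H.blk_inj hk (H.lengths.2.2.2 r) hbk
  subst hke
  set z := H.uAt (repIdx.getD r 0) * H.wAt l with hz
  have hz3 : z ^ 3 = 1 := by rw [← hkl, conj_pow, h3]; group
  have hz1 : z ≠ 1 := by
    rw [← hkl]
    intro e
    exact h1 (by rw [conj_eq_one_iff] at e; exact e)
  have hc := H.rows r hrep
  simp only [rowOk, List.all_eq_true, List.mem_range] at hc
  have hc := hc l hl
  obtain ⟨okz, ez⟩ := H.elemAt_spec r l
  have hpos : 0 < rankAt r l := by
    simp only [rankAt]
    cases hv : verdAt r l with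
    | one =>
      rw [hv] at hc
      refine absurd (mat_inj ?_) hz1
      rw [ez, eqM_eq hc, toMat_idM, mat_one]
    | cube q =>
      rw [hv] at hc
      simp only [caseOk] at hc
      split at hc
      · rename_i hq
        rw [Bool.not_eq_true'] at hc
        have e : vec (app (elemAt r l) (app (elemAt r l) (app (elemAt r l) (idM.col ⟨q, hq⟩)))) =
            vec (idM.col ⟨q, hq⟩) := by
          rw [vec_app okz (okV_app _ _), vec_app okz (okV_app _ _),
            vec_app okz (M7.ok_col idM_ok _), ← ez, Matrix.mulVec_mulVec, Matrix.mulVec_mulVec,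
            ← mat_mul, ← mat_mul]
          rw [← hz, show z * z * z = z ^ 3 by simp [pow_succ], hz3, mat_one, Matrix.one_mulVec]
        rw [vec_inj (okV_app _ _) (M7.ok_col idM_ok _) e] at hc
        simp at hc
      · simp at hc
    | root i => simp
    | step m h r' w' =>
      rw [hv] at hc
      simp only [caseOk, Bool.and_eq_true, Nat.blt_eq] at hc
      simp only
      omega
  obtain ⟨t, ht, a, ha, y, hy, hay⟩ := H.hits_place _ r l (Nat.lt_succ_self _) hrep hl hpos
  refine ⟨t, ht, a * H.uAt c, mul_mem ha (H.uAt_spec c).1, y, hy, ?_⟩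
  rw [← hay, show H.uAt (repIdx.getD r 0) * H.wAt l = H.uAt c * (H.uAt i * H.wAt j) * (H.uAt c)⁻¹ from hkl.symm]
  group

theorem hits_of_order {g : Iso} (hg : g ∈ Cfsg.Omega F Q) (h3 : g ^ 3 = 1) (h1 : g ≠ 1) :
    Hits g := by
  set O := Cfsg.Omega F Q
  have hP : IsPGroup 3 (uniGroup.subgroupOf O) :=
    uniGroup_isPGroup.of_equiv (Subgroup.subgroupOfEquivOfLe H.uniGroup_le).symm
  have hcardP : Nat.card (uniGroup.subgroupOf O) = 3 ^ 9 :=
    (Nat.card_congr (Subgroup.subgroupOfEquivOfLe H.uniGroup_le).toEquiv).trans H.card_uniGroup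
  haveI : Fact (Nat.Prime 3) := ⟨by norm_num⟩
  obtain ⟨P, hPle⟩ := hP.exists_le_sylow
  have hPeq : uniGroup.subgroupOf O = (P : Subgroup O) := by
    refine Subgroup.eq_of_le_of_card_ge hPle ?_
    rw [hcardP, Sylow.card_eq_multiplicity]
    refine Nat.pow_le_pow_right (by norm_num) ?_
    have hd : Nat.card O ∣ 3 ^ 9 * 931840 := card_Iso ▸ Subgroup.card_subgroup_dvd_card O
    refine ((Nat.factorization_le_iff_dvd Nat.card_pos.ne' (by norm_num)).2 hd 3).trans ?_
    rw [Nat.factorization_mul (by norm_num) (by norm_num)]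
    rw [Nat.Prime.factorization_pow (show Nat.Prime 3 by norm_num)]
    simp [
      Nat.factorization_eq_zero_of_not_dvd (show ¬ 3 ∣ 931840 by norm_num)]
  have hgp : IsPGroup 3 (Subgroup.zpowers (⟨g, hg⟩ : O)) := by
    refine IsPGroup.of_card_dvd_pow (n := 1) ?_
    rw [Nat.card_zpowers, pow_one]
    exact orderOf_dvd_of_pow_eq_one (Subtype.ext h3)
  obtain ⟨P', hP'⟩ := hgp.exists_le_sylow
  obtain ⟨a, ha⟩ := MulAction.exists_smul_eq O P' P
  have hmem : a * ⟨g, hg⟩ * a⁻¹ ∈ (P : Subgroup O) := by
    rw [← ha, Sylow.coe_subgroup_smul, Subgroup.mem_pointwise_smul_iff_inv_smul_mem]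
    simpa [MulAut.smul_def, mul_assoc] using hP' (Subgroup.mem_zpowers _)
  rw [← hPeq, Subgroup.mem_subgroupOf] at hmem
  obtain ⟨i, hi, k, hk, y, hy, hky⟩ := H.hits_of_mem (g := a.1 * g * a.1⁻¹) hmem
    (by rw [conj_pow, h3]; group) (fun e => h1 (by rw [conj_eq_one_iff] at e; exact e))
  refine ⟨i, hi, k * a.1, mul_mem hk a.2, y, hy, ?_⟩
  rw [← hky]
  group

end Checks

end CfsgLib.OmegaSeven
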