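import Cfsg.Agent.OmegaSeven.Check
import Cfsg.Agent.OmegaSeven.DataCent
set_option autoImplicit false
set_option Elab.async false
set_option maxRecDepth 8000

/-!
The kernel checks for the representatives.
-/

namespace CfsgLib.OmegaSeven

theorem cLevel0_ok : levelOk xA [] fv0 cGens0 cOrb0 = true := by decide +kernel

theorem cLevel1_ok : levelOk xA [fv0] fv1 cGens1 cOrb1 = true := by decide +kernel

theorem cLevel2_ok : levelOk xA [fv0, fv1] fv2 cGens2 cOrb2 = true := by decide +kernel

theorem cSpan_ok : spanOk xA [fv0, fv1, fv2] picks basB basBi = true := by decide +kernel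

/-- Check of the exchanging involution and of the word for the square. -/
def swapOk : Bool :=
  isoOk hSwap && eqM (mulM hSwap hSwap) idM && eqM (mulM hSwap xA) (mulM yA hSwap) &&
  Nat.beq (moved hSwap / 2 % 2) 1 && eqM (evalW sqWord) sqConj &&
  eqM (mulM sqConj (mulM yA yA)) (mulM yA sqConj) &&
  eqM (classReps.getD 3 idM) xA && eqM (classReps.getD 4 idM) yA

theorem swap_ok : swapOk = true := by decide +kernel

/-- Fixed vector counts of the representatives. -/
def countsOk : Bool :=
  Nat.beq classReps.length 7 && classReps.all (fun g => eqM (mulM g (mulM g g)) idM && !(eqM g idM)) &&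
  (List.range 7).all fun i =>
    Nat.beq (cnt (classReps.getD i idM) 1) ([72, 108, 90, 0, 0, 0, 18].getD i 0) &&
    Nat.beq (cnt (classReps.getD i idM) 2) ([72, 54, 90, 0, 0, 18, 0].getD i 0)

theorem counts_ok : countsOk = true := by decide +kernel

/-- Places of the representatives. -/
def placesOk : Bool :=
  (List.range 7).all fun i =>
    let p := classAt.getD i (0, 0)
    Nat.blt p.1 17 && Nat.blt p.2 243 && eqM (elemAt p.1 p.2) (classReps.getD i idM)

theorem places_ok : placesOk = true := by decide +kernel

end CfsgLib.OmegaSeven
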