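import Cfsg.Agent.OmegaSeven.Check
set_option autoImplicit false
set_option Elab.async false
set_option maxRecDepth 8000

/-!
Rows of the case list.
-/

namespace CfsgLib.OmegaSeven

theorem row0_ok : rowOk 0 = true := by decide +kernel

theorem row1_ok : rowOk 1 = true := by decide +kernel

theorem row2_ok : rowOk 2 = true := by decide +kernel

theorem row3_ok : rowOk 3 = true := by decide +kernel

theorem row4_ok : rowOk 4 = true := by decide +kernel

end CfsgLib.OmegaSeven
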