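import Cfsg.Agent.OmegaSeven.Check
set_option autoImplicit false
set_option Elab.async false
set_option maxRecDepth 8000

/-!
Rows of the case list.
-/

namespace CfsgLib.OmegaSeven

theorem row9_ok : rowOk 9 = true := by decide +kernel

theorem row10_ok : rowOk 10 = true := by decide +kernel

theorem row11_ok : rowOk 11 = true := by decide +kernel

theorem row12_ok : rowOk 12 = true := by decide +kernel

end CfsgLib.OmegaSeven
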