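import Cfsg.Agent.OmegaSeven.Check
set_option autoImplicit false
set_option Elab.async false
set_option maxRecDepth 8000

/-!
Rows of the case list.
-/

namespace CfsgLib.OmegaSeven

theorem row13_ok : rowOk 13 = true := by decide +kernel

theorem row14_ok : rowOk 14 = true := by decide +kernel

theorem row15_ok : rowOk 15 = true := by decide +kernel

theorem row16_ok : rowOk 16 = true := by decide +kernel

end CfsgLib.OmegaSeven
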