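import Cfsg.Agent.OmegaSeven.Run
import Cfsg.Agent.OmegaSeven.RunRow0
import Cfsg.Agent.OmegaSeven.RunRow1
import Cfsg.Agent.OmegaSeven.RunRow2
import Cfsg.Agent.OmegaSeven.RunRow3
import Cfsg.Agent.OmegaSeven.RunCent
set_option autoImplicit false

/-!
The seven classes of subgroups of order three.
-/

namespace CfsgLib.OmegaSeven

open Matrix

theorem checks : Checks where
  roots_ok := rootsComm_ok
  roots_uni := rootsUnit_ok
  layers := layersChk_ok
  words := wordsChk_ok
  head := headChk_ok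
  blk_nodup := blkChk_ok
  lower_nodup := lowerChk_ok
  rows := fun r hr => match r, hr with
    | 0, _ => row0_ok
    | 1, _ => row1_ok
    | 2, _ => row2_ok
    | 3, _ => row3_ok
    | 4, _ => row4_ok
    | 5, _ => row5_ok
    | 6, _ => row6_ok
    | 7, _ => row7_ok
    | 8, _ => row8_ok
    | 9, _ => row9_ok
    | 10, _ => row10_ok
    | 11, _ => row11_ok
    | 12, _ => row12_ok
    | 13, _ => row13_ok
    | 14, _ => row14_ok
    | 15, _ => row15_ok
    | 16, _ => row16_ok
    | n + 17, h => absurd h (by omega)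

theorem classRep_inOm (i : Fin 7) :
    InOm (classReps.getD i.val idM) := by
  have h := places_ok
  simp only [placesOk, List.all_eq_true, List.mem_range, Bool.and_eq_true, Nat.blt_eq] at h
  obtain ⟨-, he⟩ := h i.val i.isLt
  rw [← eqM_eq he]
  exact (checks.upper_mem _).1.mul (checks.lower_mem _).1

/-- The representatives. -/
noncomputable def repr (i : Fin 7) : Iso := (classRep_inOm i).2.choose

theorem repr_spec (i : Fin 7) :
    repr i ∈ Cfsg.Omega F Q ∧ mat (repr i) = toMat (classReps.getD i.val idM) :=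
  (classRep_inOm i).2.choose_spec

theorem repr_order (i : Fin 7) : repr i ^ 3 = 1 ∧ repr i ≠ 1 := by
  have h := counts_ok
  simp only [countsOk, Bool.and_eq_true, List.all_eq_true, Bool.not_eq_true', Nat.beq_eq] at h
  obtain ⟨⟨hl, ha⟩, -⟩ := h
  obtain ⟨h3, h1⟩ := ha _ (getD_mem_of_lt (d := idM) (lt_of_lt_of_eq i.isLt hl.symm))
  obtain ⟨ok, -⟩ := classRep_inOm i
  constructor
  · refine mat_inj ?_
    have e := congrArg toMat (eqM_eq h3)
    rw [toMat_mulM ok (ok_mulM _ _), toMat_mulM ok ok, ← (repr_spec i).2, toMat_idM] at e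
    simpa [mat_mul, pow_succ, mul_assoc] using e
  · intro e
    have e2 := (repr_spec i).2
    rw [e, mat_one, ← toMat_idM] at e2
    rw [← toMat_inj idM_ok ok e2, eqM_self] at h1
    simp at h1

theorem repr_counts (i : Fin 7) :
    fixCount (repr i) ((1 : ℕ) : F) = [72, 108, 90, 0, 0, 0, 18].getD i.val 0 ∧
    fixCount (repr i) ((2 : ℕ) : F) = [72, 54, 90, 0, 0, 18, 0].getD i.val 0 := by
  have h := counts_ok
  simp only [countsOk, Bool.and_eq_true, List.all_eq_true, Nat.beq_eq, List.mem_range] at h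
  obtain ⟨h1, h2⟩ := h.2 i.val i.isLt
  obtain ⟨ok, -⟩ := classRep_inOm i
  exact ⟨(fixCount_eq ok (repr_spec i).2 (by norm_num)).trans h1,
    (fixCount_eq ok (repr_spec i).2 (by norm_num)).trans h2⟩

theorem cent_psi : ∀ g ∈ centOf (repr 3), psi g = 1 := by
  have hsw := swap_ok
  simp only [swapOk, Bool.and_eq_true] at hsw
  have hA : (repr 3) = repr 3 := rfl
  have ex : mat (repr 3) = toMat xA := by
    rw [(repr_spec 3).2, show classReps.getD (3 : Fin 7).val idM = classReps.getD 3 idM from rfl,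
      eqM_eq hsw.1.2]
  have okA : xA.ok = true := by decide +kernel
  have hv : okV fv0 = true ∧ okV fv1 = true := by decide +kernel
  have l2 := level_spec okA ex (fixd := [fv0, fv1]) (by simp [hv.1, hv.2]) cLevel2_ok
    (fun g hg => eq_one_of_spanOk okA ex cSpan_ok g hg)
  have l1 := level_spec okA ex (fixd := [fv0]) (by simp [hv.1]) cLevel1_ok (fun g hg => l2 g hg)
  have l0 := level_spec okA ex (fixd := []) (by simp) cLevel0_ok (fun g hg => l1 g hg)
  intro g hg
  exact l0 g ⟨hg, fun v hv => absurd hv List.not_mem_nil⟩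

theorem not_conj_three_four {g : Iso} (hg : g ∈ Cfsg.Omega F Q) :
    g * repr 3 * g⁻¹ ≠ repr 4 ∧ g * repr 3 * g⁻¹ ≠ repr 4 * repr 4 := by
  have hsw := swap_ok
  simp only [swapOk, Bool.and_eq_true, Nat.beq_eq] at hsw
  obtain ⟨⟨⟨⟨⟨⟨⟨hiso, hinv⟩, hcomm⟩, hmv⟩, hword⟩, hsq⟩, hx3⟩, hy4⟩ := hsw
  obtain ⟨h, eh⟩ := exists_iso hiso
  have eh : mat h = toMat hSwap := eh
  have okh : hSwap.ok = true := by rw [isoOk, Bool.and_eq_true] at hiso; exact hiso.1
  have okx : xA.ok = true := by decide +kernel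
  have oky : yA.ok = true := by decide +kernel
  have ex : mat (repr 3) = toMat xA := by
    rw [(repr_spec 3).2, show classReps.getD (3 : Fin 7).val idM = classReps.getD 3 idM from rfl,
      eqM_eq hx3]
  have ey : mat (repr 4) = toMat yA := by
    rw [(repr_spec 4).2, show classReps.getD (4 : Fin 7).val idM = classReps.getD 4 idM from rfl,
      eqM_eq hy4]
  have hh : h * h = 1 := by
    have e := congrArg toMat (eqM_eq hinv)
    rw [toMat_mulM okh okh, toMat_idM, ← eh] at e
    exact mat_inj (by rw [mat_mul, e, mat_one])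
  have hpsi : psi h = -1 := by
    rw [psi_involution hh okh eh, ← Nat.div_add_mod (moved hSwap / 2) 2, hmv, pow_succ, pow_mul]
    simp
  have hhx : h * repr 3 = repr 4 * h := by
    have e := congrArg toMat (eqM_eq hcomm)
    rw [toMat_mulM okh okx, toMat_mulM oky okh, ← eh, ← ex, ← ey, ← mat_mul, ← mat_mul] at e
    exact mat_inj e
  have base : ∀ {k : Iso}, k ∈ Cfsg.Omega F Q → k * repr 3 * k⁻¹ ≠ repr 4 := by
    intro k hk e
    have hc : h⁻¹ * k ∈ centOf (repr 3) := by
      refine Subgroup.mem_centralizer_singleton_iff.2 ?_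
      have e1 : k * repr 3 = repr 4 * k := by rw [← e]; group
      calc h⁻¹ * k * repr 3 = h⁻¹ * (k * repr 3) := mul_assoc _ _ _
        _ = h⁻¹ * (repr 4 * h) * (h⁻¹ * k) := by rw [e1]; group
        _ = h⁻¹ * (h * repr 3) * (h⁻¹ * k) := by rw [hhx]
        _ = repr 3 * (h⁻¹ * k) := by group
    have := cent_psi _ hc
    rw [map_mul, map_inv, hpsi, psi_eq_one_of_mem hk] at this
    simp at this
  refine ⟨base hg, fun e => ?_⟩
  obtain ⟨okc, c, hc, ec⟩ : InOm sqConj := eqM_eq hword ▸ checks.evalW_inOm sqWord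
  have ec : mat c = toMat sqConj := ec
  have e1 : c * (repr 4 * repr 4) = repr 4 * c := by
    have e0 := congrArg toMat (eqM_eq hsq)
    rw [toMat_mulM okc (ok_mulM _ _), toMat_mulM oky oky, toMat_mulM oky okc, ← ec, ← ey,
      ← mat_mul, ← mat_mul, ← mat_mul] at e0
    exact mat_inj e0
  refine base (mul_mem hc hg) ?_
  calc c * g * repr 3 * (c * g)⁻¹ = c * (g * repr 3 * g⁻¹) * c⁻¹ := by group
    _ = c * (repr 4 * repr 4) * c⁻¹ := by rw [e]
    _ = repr 4 := by rw [e1]; group

theorem conj_invariant {i j : Fin 7} {g : Iso}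
    (h : g * repr i * g⁻¹ = repr j ∨ g * repr i * g⁻¹ = repr j * repr j) (c : F) :
    fixCount (repr i) c = fixCount (repr j) c := by
  rcases h with h | h
  · rw [← h, fixCount_conj]
  · rw [← fixCount_sq (repr_order j).1 c, ← h, fixCount_conj]

theorem repr_injective {i j : Fin 7} {g : Iso} (hg : g ∈ Cfsg.Omega F Q)
    (h : g * repr i * g⁻¹ = repr j ∨ g * repr i * g⁻¹ = repr j * repr j) : i = j := by
  have e1 := conj_invariant h ((1 : ℕ) : F)
  have e2 := conj_invariant h ((2 : ℕ) : F)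
  rw [(repr_counts i).1, (repr_counts j).1] at e1
  rw [(repr_counts i).2, (repr_counts j).2] at e2
  have hcase : ∀ i j : Fin 7,
      [72, 108, 90, 0, 0, 0, 18].getD i.val 0 = [72, 108, 90, 0, 0, 0, 18].getD j.val 0 →
      [72, 54, 90, 0, 0, 18, 0].getD i.val 0 = [72, 54, 90, 0, 0, 18, 0].getD j.val 0 →
      i = j ∨ (i = 3 ∧ j = 4) ∨ (i = 4 ∧ j = 3) := by decide +kernel
  rcases hcase i j e1 e2 with e | ⟨rfl, rfl⟩ | ⟨rfl, rfl⟩
  · exact e
  · rcases h with h | h
    · exact absurd h (not_conj_three_four hg).1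
    · exact absurd h (not_conj_three_four hg).2
  · have h3 := (repr_order 3).1
    have h4 := (repr_order 4).1
    rcases h with h | h
    · refine absurd ?_ (not_conj_three_four (inv_mem hg)).1
      rw [← h]; group
    · refine absurd ?_ (not_conj_three_four (inv_mem hg)).2
      have : repr 3 = g * (repr 4 * repr 4) * g⁻¹ := by
        calc repr 3 = repr 3 * repr 3 * (repr 3 * repr 3) := by
              rw [show repr 3 * repr 3 * (repr 3 * repr 3) = repr 3 ^ 3 * repr 3 by
                simp [pow_succ, mul_assoc], h3, one_mul]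
          _ = g * (repr 4 * repr 4) * g⁻¹ := by rw [← h]; group
      rw [this]
      group

theorem subgroup_eq_of_mem {G : Type*} [Group G] {x z : G} (hx : x ^ 3 = 1)
    (hz : z ∈ Subgroup.zpowers x) (hz1 : z ≠ 1) : z = x ∨ z = x * x := by
  obtain ⟨n, rfl⟩ := Subgroup.mem_zpowers_iff.1 hz
  rw [zpow_eq_zpow_emod' n (show x ^ 3 = 1 from hx)] at hz1 ⊢
  have h1 := Int.emod_nonneg n (show ((3 : ℕ) : ℤ) ≠ 0 by norm_num)
  have h2 := Int.emod_lt_of_pos n (show (0 : ℤ) < ((3 : ℕ) : ℤ) by norm_num)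
  have h3 : n % ((3 : ℕ) : ℤ) = 0 ∨ n % ((3 : ℕ) : ℤ) = 1 ∨ n % ((3 : ℕ) : ℤ) = 2 := by omega
  rcases h3 with h3 | h3 | h3 <;> rw [h3] at hz1 ⊢
  · exact absurd (zpow_zero x) hz1
  · exact Or.inl (zpow_one x)
  · exact Or.inr (by rw [zpow_two])

/-- The seven classes, in `Ω`. -/
theorem omega_classes :
    ∃ Y : Fin 7 → Subgroup (Cfsg.Omega F Q), (∀ i, Nat.card (Y i) = 3) ∧
      (∀ i j, (∃ g : Cfsg.Omega F Q, (Y i).map (MulAut.conj g).toMonoidHom = Y j) → i = j) ∧
      ∀ X : Subgroup (Cfsg.Omega F Q), Nat.card X = 3 →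
        ∃ i, ∃ g : Cfsg.Omega F Q, X.map (MulAut.conj g).toMonoidHom = Y i := by
  have hord : ∀ i : Fin 7, orderOf (⟨repr i, (repr_spec i).1⟩ : Cfsg.Omega F Q) = 3 := fun i => by
    haveI : Fact (Nat.Prime 3) := ⟨by norm_num⟩
    refine orderOf_eq_prime (Subtype.ext (repr_order i).1) fun e => (repr_order i).2 ?_
    exact congrArg Subtype.val e
  refine ⟨fun i => Subgroup.zpowers ⟨repr i, (repr_spec i).1⟩, fun i => ?_, fun i j ⟨g, hg⟩ => ?_,
    fun X hX => ?_⟩
  · rw [Nat.card_zpowers, hord]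
  · simp only [MonoidHom.map_zpowers] at hg
    have hz : MulAut.conj g (⟨repr i, (repr_spec i).1⟩ : Cfsg.Omega F Q) ∈
        Subgroup.zpowers (⟨repr j, (repr_spec j).1⟩ : Cfsg.Omega F Q) := by
      rw [← hg]; exact Subgroup.mem_zpowers _
    have hne : MulAut.conj g (⟨repr i, (repr_spec i).1⟩ : Cfsg.Omega F Q) ≠ 1 := by
      intro e
      rw [map_eq_one_iff _ (MulAut.conj g).injective] at e
      exact (repr_order i).2 (congrArg Subtype.val e)
    refine repr_injective g.2 ?_
    rcases subgroup_eq_of_mem (Subtype.ext (repr_order j).1) hz hne with e | e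
    · exact Or.inl (congrArg Subtype.val e)
    · exact Or.inr (congrArg Subtype.val e)
  · haveI : Fact (Nat.Prime 3) := ⟨by norm_num⟩
    obtain ⟨x, hx⟩ := exists_prime_orderOf_dvd_card' (G := X) 3 (by rw [hX])
    have hxo : orderOf (x : Cfsg.Omega F Q) = 3 := by rw [Subgroup.orderOf_coe]; exact hx
    have hXe : X = Subgroup.zpowers (x : Cfsg.Omega F Q) := by
      refine (Subgroup.eq_of_le_of_card_ge ((Subgroup.zpowers_le).2 x.2) ?_).symm
      rw [hX, Nat.card_zpowers, hxo]
    obtain ⟨i, hi, h, hh, y, hy, hc⟩ := checks.hits_of_order (g := (x : Cfsg.Omega F Q).1)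
      (x : Cfsg.Omega F Q).2
      (congrArg Subtype.val (hxo ▸ pow_orderOf_eq_one (x : Cfsg.Omega F Q)))
      (fun e => by
        have e' : (x : Cfsg.Omega F Q) = 1 := Subtype.ext e
        rw [e', orderOf_one] at hxo
        norm_num at hxo)
    have hyr : y = repr ⟨i, hi⟩ := mat_inj (hy.trans (repr_spec ⟨i, hi⟩).2.symm)
    refine ⟨⟨i, hi⟩, ⟨h, hh⟩, ?_⟩
    rw [hXe, MonoidHom.map_zpowers]
    congr 1
    exact Subtype.ext (hc.trans hyr)

end CfsgLib.OmegaSeven
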