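import Cfsg.Agent.OmegaSeven.Check
set_option autoImplicit false
set_option Elab.async false
set_option maxRecDepth 8000

/-!
The small kernel checks.
-/

namespace CfsgLib.OmegaSeven

theorem rootsComm_ok : rootsOk = true := by decide +kernel

theorem rootsUnit_ok : rootsUni = true := by decide +kernel

theorem layersChk_ok : layersOk = true := by decide +kernel

theorem wordsChk_ok : wordsOk = true := by decide +kernel

theorem headChk_ok : headOk = true := by decide +kernel

theorem blkChk_ok : blkNodup = true := by decide +kernel

theorem lowerChk_ok : lowerNodup = true := by decide +kernel

end CfsgLib.OmegaSeven
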