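import Cfsg.Agent.OmegaSeven.Tools
import Mathlib.GroupTheory.Sylow
set_option autoImplicit false

/-!
The unitriangular isometries: a Sylow 3-subgroup, and its middle block.
-/

namespace CfsgLib.OmegaSeven

open Matrix

/-- Upper unitriangular in the flag order. -/
def Uni (M : Matrix Ix Ix F) : Prop :=
  (∀ i j, pos j < pos i → M i j = 0) ∧ ∀ i, M i i = 1

theorem uni_one : Uni (1 : Matrix Ix Ix F) :=
  ⟨fun i j h => Matrix.one_apply_ne (fun e => (lt_irrefl _ (e ▸ h : pos j < pos j))),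
    fun i => Matrix.one_apply_eq i⟩

theorem Uni.mul {M N : Matrix Ix Ix F} (hM : Uni M) (hN : Uni N) : Uni (M * N) := by
  refine ⟨fun i j h => ?_, fun i => ?_⟩
  · rw [Matrix.mul_apply]
    refine Finset.sum_eq_zero fun k _ => ?_
    rcases lt_or_ge (pos k) (pos i) with hk | hk
    · rw [hM.1 i k hk, zero_mul]
    · rw [hN.1 k j (lt_of_lt_of_le h hk), mul_zero]
  · show ∑ k, M i k * N k i = 1
    rw [Finset.sum_eq_single i (fun k _ hk => ?_) (by simp), hM.2, hN.2, mul_one]
    rcases lt_trichotomy (pos k) (pos i) with h | h | h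
    · rw [hM.1 i k h, zero_mul]
    · exact absurd (posEquiv.injective h) hk
    · rw [hN.1 k i h, mul_zero]

/-- Decidable form on codes. -/
def uniOk (A : M7) : Bool :=
  A.ok && (List.finRange 7).all fun i => (List.finRange 7).all fun j =>
    bif Nat.blt j.val i.val then Nat.beq (dig (A.col j) i) 0
    else bif Nat.beq j.val i.val then Nat.beq (dig (A.col j) i) 1 else true

theorem uni_of_uniOk {A : M7} (h : uniOk A = true) : Uni (toMat A) := by
  simp only [uniOk, Bool.and_eq_true, List.all_eq_true, List.mem_finRange, forall_const] at h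
  refine ⟨fun i j hij => ?_, fun i => ?_⟩
  · have := h.2 (pos i) (pos j)
    rw [show Nat.blt (pos j).val (pos i).val = true from Nat.blt_eq ▸ hij, cond_true, Nat.beq_eq] at this
    simp [toMat, this]
  · have := h.2 (pos i) (pos i)
    rw [show Nat.blt (pos i).val (pos i).val = false by
        cases e : Nat.blt (pos i).val (pos i).val
        · rfl
        · exact absurd (Nat.blt_eq ▸ e) (lt_irrefl _),
      show Nat.beq (pos i).val (pos i).val = true by simp, cond_false, cond_true, Nat.beq_eq] at this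
    simp [toMat, this]

/-- The subgroup of unitriangular isometries. -/
noncomputable def uniGroup : Subgroup Iso :=
  subgroupOfIdempotent {g | Uni (mat g)} ⟨1, by show Uni (mat 1); rw [mat_one]; exact uni_one⟩ (by
    ext g
    constructor
    · rintro ⟨a, ha, b, hb, rfl⟩
      show Uni (mat (a * b))
      rw [mat_mul]
      exact Uni.mul ha hb
    · intro hg
      exact ⟨g, hg, 1, (by show Uni (mat 1); rw [mat_one]; exact uni_one), mul_one g⟩)

theorem mem_uniGroup {g : Iso} : g ∈ uniGroup ↔ Uni (mat g) := Iff.rfl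

theorem band {N : Matrix Ix Ix F} (hN : ∀ i j, (pos j).val ≤ (pos i).val → N i j = 0) :
    ∀ (k : ℕ) i j, (pos j).val < (pos i).val + k → (N ^ k) i j = 0
  | 0, i, j, h => Matrix.one_apply_ne fun e => by subst e; simp at h
  | k + 1, i, j, h => by
    rw [pow_succ, Matrix.mul_apply]
    refine Finset.sum_eq_zero fun l _ => ?_
    rcases lt_or_ge (pos l).val ((pos i).val + k) with hl | hl
    · rw [band hN k i l hl, zero_mul]
    · rw [hN l j (by omega), mul_zero]

theorem uniGroup_isPGroup : IsPGroup 3 uniGroup := by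
  intro g
  refine ⟨2, Subtype.ext (mat_inj ?_)⟩
  have hg : Uni (mat g.1) := g.2
  have hm : ∀ n, mat (g.1 ^ n) = mat g.1 ^ n := by
    intro n
    induction n with
    | zero => simp
    | succ n ih => rw [pow_succ, pow_succ, mat_mul, ih]
  have hN : ∀ i j, (pos j).val ≤ (pos i).val → (mat g.1 - 1) i j = 0 := by
    intro i j h
    rcases h.lt_or_eq with h | h
    · rw [Matrix.sub_apply, hg.1 i j h, Matrix.one_apply_ne (fun e => by simp [e] at h), sub_zero]
    · rw [posEquiv.injective (Fin.ext h) , Matrix.sub_apply, hg.2, Matrix.one_apply_eq, sub_self]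
  have h9 : (mat g.1 - 1) ^ (3 ^ 2) = 0 := by
    ext i j
    exact band hN _ i j (by have := (pos j).isLt; norm_num; omega)
  rw [sub_pow_char_pow_of_commute _ _ (Commute.one_right _), one_pow, sub_eq_zero] at h9
  rw [Subgroup.coe_pow, hm, h9, OneMemClass.coe_one, mat_one]

theorem card_Iso : Nat.card Iso = 3 ^ 9 * 931840 := by
  have h2 : (2 : F) ≠ 0 := by decide
  have h := CfsgLib.OrthOrder.card_isom_odd (F := F) h2 3
  rw [← Nat.card_congr (CfsgLib.Forms.isoEquiv (CfsgLib.Forms.quadOdd F 3)).toEquiv,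
    CfsgLib.Forms.coe_quadOdd, ZMod.card] at h
  rw [h]
  norm_num [Finset.prod_range_succ]

theorem card_uniGroup_le : Nat.card uniGroup ≤ 3 ^ 9 := by
  obtain ⟨n, hn⟩ := IsPGroup.iff_card.1 uniGroup_isPGroup
  have h := Subgroup.card_subgroup_dvd_card uniGroup
  rw [hn, card_Iso] at h
  have hco : Nat.Coprime (3 ^ n) 931840 := Nat.Coprime.pow_left _ (by norm_num)
  rw [hn]
  exact Nat.le_of_dvd (by norm_num) (hco.dvd_of_dvd_mul_right h)

/-- The five middle coordinates. -/
def mid (k : Fin 5) : Ix := coord ⟨k.val + 1, by omega⟩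

/-- The middle block. -/
def blk (M : Matrix Ix Ix F) : Matrix (Fin 5) (Fin 5) F := M.submatrix mid mid

theorem blk_mul {M N : Matrix Ix Ix F} (hM : Uni M) (hN : Uni N) :
    blk (M * N) = blk M * blk N := by
  ext a b
  have hp : ∀ k : Fin 5, (pos (mid k)).val = k.val + 1 := fun k => by simp [mid, pos_coord]
  show ∑ k, M (mid a) k * N k (mid b) = ∑ k, M (mid a) (mid k) * N (mid k) (mid b)
  rw [sum_Ix, Fin.sum_univ_five, hM.1 (mid a) (coord 0) (by
      rw [pos_coord, Fin.lt_def, hp]; exact Nat.succ_pos _),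
    hN.1 (coord 6) (mid b) (by rw [pos_coord, Fin.lt_def, hp]; have := b.isLt; omega)]
  simp [mid]

theorem blk_one : blk 1 = 1 := by
  decide

theorem blk_cancel {g k h : Iso} (hg : g ∈ uniGroup) (hk : k ∈ uniGroup) (hh : h ∈ uniGroup)
    (e : blk (mat g) * blk (mat h) = blk (mat k) * blk (mat h)) : blk (mat g) = blk (mat k) := by
  have hi : h⁻¹ ∈ uniGroup := inv_mem hh
  have : blk (mat h) * blk (mat h⁻¹) = 1 := by
    rw [← blk_mul hh hi, ← mat_mul, mul_inv_cancel, mat_one, blk_one]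
  calc blk (mat g) = blk (mat g) * (blk (mat h) * blk (mat h⁻¹)) := by rw [this, mul_one]
    _ = blk (mat k) * (blk (mat h) * blk (mat h⁻¹)) := by rw [← mul_assoc, e, mul_assoc]
    _ = blk (mat k) := by rw [this, mul_one]

/-- The middle digits of a column. -/
def midCol (c : ℕ) : ℕ := c / 256 % 1099511627776

/-- The middle block, coded. -/
def blkC (A : M7) : List ℕ := [midCol A.c1, midCol A.c2, midCol A.c3, midCol A.c4, midCol A.c5]

/-- Comparison of middle blocks. -/
def eqBlk (A B : M7) : Bool :=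
  Nat.beq (midCol A.c1) (midCol B.c1) && Nat.beq (midCol A.c2) (midCol B.c2) &&
    Nat.beq (midCol A.c3) (midCol B.c3) && Nat.beq (midCol A.c4) (midCol B.c4) &&
    Nat.beq (midCol A.c5) (midCol B.c5)

theorem midCol_eq_pk (c : ℕ) : midCol c = pk (d1 c) (d2 c) (d3 c) (d4 c) (d5 c) 0 0 := by
  simp only [midCol, pk, d1, d2, d3, d4, d5]
  omega

theorem blk_eq_iff {A B : M7} (hA : A.ok = true) (hB : B.ok = true) :
    blk (toMat A) = blk (toMat B) ↔ eqBlk A B = true := by
  have hd : ∀ C : M7, C.ok = true → ∀ (a b : Fin 5), (blk (toMat C)) a b =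
      ((dig (C.col ⟨b.val + 1, by omega⟩) ⟨a.val + 1, by omega⟩ : ℕ) : F) := by
    intro C _ a b
    simp [blk, toMat, mid, pos_coord]
  constructor
  · intro h
    have e : ∀ a b : Fin 5, dig (A.col ⟨b.val + 1, by omega⟩) ⟨a.val + 1, by omega⟩ =
        dig (B.col ⟨b.val + 1, by omega⟩) ⟨a.val + 1, by omega⟩ := fun a b =>
      cast_inj3 (dig_lt (M7.ok_col hA _) _) (dig_lt (M7.ok_col hB _) _)
        (by rw [← hd A hA, ← hd B hB, h])
    have hc : ∀ b : Fin 5, midCol (A.col ⟨b.val + 1, by omega⟩) = midCol (B.col ⟨b.val + 1, by omega⟩) := by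
      intro b
      rw [midCol_eq_pk, midCol_eq_pk]
      have e0 := e 0 b; have e1 := e 1 b; have e2 := e 2 b; have e3 := e 3 b; have e4 := e 4 b
      simp [dig] at e0 e1 e2 e3 e4
      rw [e0, e1, e2, e3, e4]
    simp only [eqBlk, Bool.and_eq_true, Nat.beq_eq]
    exact ⟨⟨⟨⟨hc 0, hc 1⟩, hc 2⟩, hc 3⟩, hc 4⟩
  · intro h
    simp only [eqBlk, Bool.and_eq_true, Nat.beq_eq] at h
    obtain ⟨⟨⟨⟨h0, h1⟩, h2⟩, h3⟩, h4⟩ := h
    have hc : ∀ b : Fin 5, midCol (A.col ⟨b.val + 1, by omega⟩) = midCol (B.col ⟨b.val + 1, by omega⟩) := by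
      intro b; fin_cases b <;> assumption
    ext a b
    rw [hd A hA, hd B hB]
    have hm : ∀ c, okV c = true → dig (midCol c) ⟨a.val, by omega⟩ = dig c ⟨a.val + 1, by omega⟩ := by
      intro c hc'
      rw [midCol_eq_pk]
      have hlt := fun k => dig_lt hc' k
      rw [show pk (d1 c) (d2 c) (d3 c) (d4 c) (d5 c) 0 0 =
        pk (![d1 c, d2 c, d3 c, d4 c, d5 c, 0, 0] 0) (![d1 c, d2 c, d3 c, d4 c, d5 c, 0, 0] 1)
          (![d1 c, d2 c, d3 c, d4 c, d5 c, 0, 0] 2) (![d1 c, d2 c, d3 c, d4 c, d5 c, 0, 0] 3)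
          (![d1 c, d2 c, d3 c, d4 c, d5 c, 0, 0] 4) (![d1 c, d2 c, d3 c, d4 c, d5 c, 0, 0] 5)
          (![d1 c, d2 c, d3 c, d4 c, d5 c, 0, 0] 6) from rfl,
        dig_pk _ (fun k => by
          have := hlt 1; have := hlt 2; have := hlt 3; have := hlt 4; have := hlt 5
          simp [dig] at *
          fin_cases k <;> simp <;> omega)]
      fin_cases a <;> rfl
    rw [← hm _ (M7.ok_col hA _), ← hm _ (M7.ok_col hB _), hc]

end CfsgLib.OmegaSeven
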